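import Mathlib
import Cfsg.Agent.S0410
import Cfsg.Agent.Eqns.E_Cfsg_pointBlockRel

set_option autoImplicit false
open Cfsg Finset

namespace Cfsg.Agent.Mix26

section
variable {V : Type*} [Fintype V] [DecidableEq V] {G : SimpleGraph V} [DecidableRel G.Adj]

/-- common neighbours as a finset -/
def cn (G : SimpleGraph V) [DecidableRel G.Adj] (v w : V) : Finset V :=
  univ.filter fun x => G.Adj v x ∧ G.Adj w x

lemma card_cn (v w : V) : Fintype.card (G.commonNeighbors v w) = (cn G v w).card := by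
  rw [cn, ← Fintype.card_coe]
  refine Fintype.card_congr (Equiv.subtypeEquivRight fun x => ?_)
  simp [SimpleGraph.mem_commonNeighbors]

variable (h : G.IsSRGWith 100 22 0 6)
include h

lemma no_tri {a b c : V} (h1 : G.Adj a b) (h2 : G.Adj a c) (h3 : G.Adj b c) : False := by
  have := h.of_adj a b h1
  rw [card_cn, card_eq_zero] at this
  have : c ∈ cn G a b := by simp [cn, h2, h3]
  simp_all

lemma cn6 {a b : V} (h1 : a ≠ b) (h2 : ¬ G.Adj a b) : (cn G a b).card = 6 := by
  rw [← card_cn]; exact h.of_not_adj h1 h2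

lemma deg22 (a : V) : (univ.filter fun x => G.Adj a x).card = 22 := by
  have := h.regular a
  rw [← SimpleGraph.card_neighborFinset_eq_degree] at this
  rw [← this]; congr 1; ext; simp

omit h in
/-- the vertices at distance two from `o` -/
def far (G : SimpleGraph V) [DecidableRel G.Adj] (o : V) : Finset V :=
  univ.filter fun x => x ≠ o ∧ ¬ G.Adj o x

lemma card_far (o : V) : (far G o).card = 77 := by
  have h1 : far G o = univ \ insert o (univ.filter fun x => G.Adj o x) := by
    ext x; simp [far]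
  rw [h1, card_sdiff_of_subset (subset_univ _), card_insert_of_notMem (by simp), deg22 h,
    card_univ, h.card]

lemma far_pt {o a : V} (ha : G.Adj o a) : ((far G o).filter fun x => G.Adj a x).card = 21 := by
  have h1 : ((far G o).filter fun x => G.Adj a x) = (univ.filter fun x => G.Adj a x).erase o := by
    ext x
    simp only [far, mem_filter, mem_univ, true_and, mem_erase]
    constructor
    · rintro ⟨⟨h1, -⟩, h2⟩; exact ⟨h1, h2⟩
    · rintro ⟨h1, h2⟩; exact ⟨⟨h1, fun h3 => no_tri h ha h3 h2⟩, h2⟩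
  rw [h1, card_erase_of_mem (by simpa using ha.symm), deg22 h]

lemma far_pt2 {o a a' : V} (ha : G.Adj o a) (ha' : G.Adj o a') (hne : a ≠ a') :
    ((far G o).filter fun x => G.Adj a x ∧ G.Adj a' x).card = 5 := by
  have h1 : ((far G o).filter fun x => G.Adj a x ∧ G.Adj a' x) = (cn G a a').erase o := by
    ext x
    simp only [far, cn, mem_filter, mem_univ, true_and, mem_erase]
    constructor
    · rintro ⟨⟨h1, -⟩, h2⟩; exact ⟨h1, h2⟩
    · rintro ⟨h1, h2⟩; exact ⟨⟨h1, fun h3 => no_tri h ha h3 h2.1⟩, h2⟩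
  rw [h1, card_erase_of_mem (by simpa [cn] using ⟨ha.symm, ha'.symm⟩),
    cn6 h hne fun h3 => no_tri h ha ha' h3]

lemma far_far {o b : V} (hb : b ∈ far G o) : ((far G o).filter fun x => G.Adj b x).card = 16 := by
  simp only [far, mem_filter, mem_univ, true_and] at hb
  have h1 : ((far G o).filter fun x => G.Adj b x) =
      (univ.filter fun x => G.Adj b x) \ cn G o b := by
    ext x
    simp only [far, cn, mem_filter, mem_univ, true_and, mem_sdiff]
    constructor
    · rintro ⟨⟨-, h1⟩, h2⟩; exact ⟨h2, fun h3 => h1 h3.1⟩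
    · rintro ⟨h1, h2⟩
      exact ⟨⟨fun h3 => hb.2 (h3 ▸ h1.symm), fun h3 => h2 ⟨h3, h1⟩⟩, h1⟩
  rw [h1, card_sdiff_of_subset (by intro x; simp [cn]), deg22 h, cn6 h hb.1.symm hb.2]

lemma inter_two {o b c : V} (hb : b ∈ far G o) (hc : c ∈ far G o) (hne : c ≠ b)
    (hn : ¬ G.Adj b c) : ((cn G o b).filter fun a => G.Adj a c).card = 2 := by
  have hb' := hb
  simp only [far, mem_filter, mem_univ, true_and] at hb'
  set K := cn G o b with hK
  have hK6 : K.card = 6 := cn6 h hb'.1.symm hb'.2
  have hKo : ∀ a ∈ K, G.Adj o a := fun a ha => by simp [hK, cn] at ha; exact ha.1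
  set x : V → ℤ := fun c => ∑ a ∈ K, if G.Adj a c then 1 else 0 with hx
  have hxc : ∀ c, x c = (K.filter fun a => G.Adj a c).card := fun c => by
    simp [hx]
  have s1 : ∑ c ∈ far G o, x c = 126 := by
    simp only [hx]
    rw [sum_comm, sum_congr rfl (g := fun _ => (21 : ℤ))]
    · simp [hK6]
    · intro a ha
      have := far_pt h (hKo a ha)
      simp [this]
  have s2 : ∑ c ∈ far G o, x c ^ 2 = 276 := by
    simp only [hx, sq, sum_mul_sum]
    rw [sum_comm, sum_congr rfl (g := fun _ => (46 : ℤ))]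
    · simp [hK6]
    · intro a ha
      rw [sum_comm, ← add_sum_erase _ _ ha, sum_congr rfl (s₁ := K.erase a) (g := fun _ => (5 : ℤ))]
      · have := far_pt h (hKo a ha)
        have e : ∀ y, ((if G.Adj a y then 1 else 0 : ℤ) * if G.Adj a y then 1 else 0) =
            if G.Adj a y then 1 else 0 := fun y => by split_ifs <;> simp
        simp only [e]
        simp [this, card_erase_of_mem ha, hK6]
      · intro a' ha'
        have := far_pt2 h (hKo a ha) (hKo a' (mem_of_mem_erase ha')) (ne_of_mem_erase ha').symm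
        have e : ∀ y, ((if G.Adj a y then 1 else 0 : ℤ) * if G.Adj a' y then 1 else 0) =
            if G.Adj a y ∧ G.Adj a' y then 1 else 0 := fun y => by
          by_cases h1 : G.Adj a y <;> by_cases h2 : G.Adj a' y <;> simp [h1, h2]
        simp only [e]
        simp [this]
  have xb : x b = 6 := by
    rw [hxc, filter_true_of_mem, hK6]; · rfl
    intro a ha; simp [hK, cn] at ha; exact ha.2.symm
  have xa : ∀ c, G.Adj b c → x c = 0 := fun c hc => by
    rw [hxc, filter_false_of_mem]; · rfl
    intro a ha h3; simp [hK, cn] at ha; exact no_tri h ha.2 hc h3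
  have s3 : ∑ c ∈ far G o, (x c - 2) ^ 2 = 80 := by
    have : ∀ c, (x c - 2) ^ 2 = x c ^ 2 - 4 * x c + 4 := fun c => by ring
    simp only [this, sum_add_distrib, sum_sub_distrib, ← mul_sum, s1, s2]
    simp [card_far h]
  rw [← sum_filter_add_sum_filter_not _ (fun c => G.Adj b c),
    sum_congr rfl (g := fun _ => (4 : ℤ)) (fun c hc => by rw [xa c (mem_filter.1 hc).2]; norm_num),
    ← add_sum_erase _ _ (show b ∈ (far G o).filter fun c => ¬ G.Adj b c by simp [hb]), xb] at s3
  simp only [sum_const, far_far h hb] at s3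
  have s4 : ∑ c ∈ ((far G o).filter fun c => ¬ G.Adj b c).erase b, (x c - 2) ^ 2 = 0 := by
    simp at s3; linarith
  rw [sum_eq_zero_iff_of_nonneg (fun _ _ => sq_nonneg _)] at s4
  have := s4 c (by simp [hne, hc, hn])
  have h2 : x c = 2 := by nlinarith
  rw [hxc] at h2
  exact_mod_cast h2

omit h in
/-- the block of a far vertex -/
def blk (G : SimpleGraph V) [DecidableRel G.Adj] (o b : V) : Finset {a // G.Adj o a} :=
  univ.filter fun a => G.Adj a.1 b

omit h in
lemma card_blk_inter (o b c : V) :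
    (blk G o b ∩ blk G o c).card = ((cn G o b).filter fun a => G.Adj a c).card := by
  rw [← card_map (Function.Embedding.subtype _)]
  congr 1; ext x
  simp only [blk, cn, mem_map, mem_inter, mem_filter, mem_univ, true_and,
    Function.Embedding.coe_subtype, Subtype.exists, exists_and_right, exists_eq_right]
  constructor
  · rintro ⟨⟨h1, h2⟩, h3⟩; exact ⟨⟨h1, h2.symm⟩, h3⟩
  · rintro ⟨⟨h1, h2⟩, h3⟩; exact ⟨⟨h1, h2.symm⟩, h3⟩

lemma card_blk {o b : V} (hb : b ∈ far G o) : (blk G o b).card = 6 := by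
  have := card_blk_inter (G := G) o b b
  simp only [far, mem_filter, mem_univ, true_and] at hb
  rw [inter_self, filter_true_of_mem, cn6 h hb.1.symm hb.2] at this
  · exact this
  · intro a ha; simp [cn] at ha; exact ha.2.symm

lemma blk_disj {o b c : V} (hbc : G.Adj b c) : Disjoint (blk G o b) (blk G o c) := by
  rw [disjoint_left]
  intro a h1 h2
  simp only [blk, mem_filter, mem_univ, true_and] at h1 h2
  exact no_tri h h1 h2 hbc

lemma blk_inter_le {o b c : V} (hb : b ∈ far G o) (hc : c ∈ far G o) (hne : c ≠ b) :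
    (blk G o b ∩ blk G o c).card ≤ 2 := by
  by_cases hn : G.Adj b c
  · rw [disjoint_iff_inter_eq_empty.1 (blk_disj h hn)]; simp
  · rw [card_blk_inter, inter_two h hb hc hne hn]

lemma blk_inj {o b c : V} (hb : b ∈ far G o) (hc : c ∈ far G o) (e : blk G o b = blk G o c) :
    b = c := by
  by_contra hne
  have := blk_inter_le h hb hc (Ne.symm hne)
  rw [← e, inter_self, card_blk h hb] at this
  omega

lemma adj_iff {o b c : V} (hb : b ∈ far G o) (hc : c ∈ far G o) :
    G.Adj b c ↔ Disjoint (blk G o b) (blk G o c) := by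
  refine ⟨blk_disj h, fun hd => ?_⟩
  by_contra hn
  have h0 : (blk G o b ∩ blk G o c).card = 0 := by rw [disjoint_iff_inter_eq_empty.1 hd]; simp
  by_cases hne : c = b
  · subst hne; rw [inter_self, card_blk h hb] at h0; omega
  · rw [card_blk_inter, inter_two h hb hc hne hn] at h0; omega

lemma card_pts (o : V) : Fintype.card {a // G.Adj o a} = 22 := by
  rw [Fintype.card_subtype, deg22 h]

lemma steiner (o : V) : IsSteinerSystem 3 6 (blk G o '' (far G o : Set V)) := by
  refine ⟨?_, fun s hs => ?_⟩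
  · rintro _ ⟨b, hb, rfl⟩; exact card_blk h hb
  have uq : ∀ b ∈ far G o, ∀ c ∈ far G o, ∀ s : Finset {a // G.Adj o a}, s.card = 3 →
      s ⊆ blk G o b → s ⊆ blk G o c → b = c := fun b hb c hc s hs h1 h2 => by
    by_contra hne
    have := (card_le_card (subset_inter h1 h2)).trans (blk_inter_le h hb hc (Ne.symm hne))
    omega
  have hU : (far G o).biUnion (fun b => powersetCard 3 (blk G o b)) = powersetCard 3 univ := by
    apply eq_of_subset_of_card_le
    · intro t ht
      simp only [mem_biUnion, mem_powersetCard] at ht ⊢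
      obtain ⟨b, -, -, h2⟩ := ht
      exact ⟨subset_univ _, h2⟩
    · rw [card_biUnion, sum_congr rfl (g := fun _ => 20), card_powersetCard, card_univ,
        card_pts h]
      · simp [card_far h]; decide
      · intro b hb; rw [card_powersetCard, card_blk h hb]; decide
      · intro b hb c hc hne
        rw [Function.onFun, disjoint_left]
        intro t h1 h2
        rw [mem_powersetCard] at h1 h2
        exact hne (uq b hb c hc t h1.2 h1.1 h2.1)
  have : s ∈ powersetCard 3 (univ : Finset {a // G.Adj o a}) := by simp [hs]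
  rw [← hU, mem_biUnion] at this
  obtain ⟨b, hb, hsb⟩ := this
  rw [mem_powersetCard] at hsb
  refine ⟨blk G o b, ⟨⟨b, hb, rfl⟩, hsb.1⟩, ?_⟩
  rintro _ ⟨⟨c, hc, rfl⟩, h2⟩
  rw [uq b hb c hc s hs hsb.1 h2]

end

theorem srg100_iso {V W : Type*} [Fintype V] [Fintype W] {G : SimpleGraph V} {H : SimpleGraph W}
    [DecidableRel G.Adj] [DecidableRel H.Adj] (hG : G.IsSRGWith 100 22 0 6)
    (hH : H.IsSRGWith 100 22 0 6) : Nonempty (G ≃g H) := by
  classical
  obtain ⟨o⟩ : Nonempty V := Fintype.card_pos_iff.1 (by rw [hG.card]; norm_num)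
  obtain ⟨o'⟩ : Nonempty W := Fintype.card_pos_iff.1 (by rw [hH.card]; norm_num)
  obtain ⟨e, he⟩ := Cfsg.Agent.S0410.result (card_pts hG o) (card_pts hH o') (steiner hG o)
    (steiner hH o')
  have ex : ∀ b ∈ far G o, ∃ b' ∈ far H o', blk H o' b' = (blk G o b).image e := fun b hb => by
    have : (blk G o b).image e ∈ blk H o' '' (far H o' : Set W) := he ▸ ⟨_, ⟨b, hb, rfl⟩, rfl⟩
    obtain ⟨b', h1, h2⟩ := this
    exact ⟨b', h1, h2⟩
  haveI : Nonempty W := ⟨o'⟩
  choose! φ hφ1 hφ2 using ex
  let f : V → W := fun v => if h : G.Adj o v then (e ⟨v, h⟩).1 else if v = o then o' else φ v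
  have f0 : f o = o' := by simp [f]
  have f1 : ∀ a : {a // G.Adj o a}, f a = e a := fun a => by simp [f, a.2]
  have f2 : ∀ b ∈ far G o, f b = φ b := fun b hb => by
    simp only [far, mem_filter, mem_univ, true_and] at hb
    simp [f, hb.1, hb.2]
  have tri : ∀ v, v = o ∨ (∃ a : {a // G.Adj o a}, v = a) ∨ v ∈ far G o := fun v => by
    by_cases h1 : v = o
    · exact Or.inl h1
    by_cases h2 : G.Adj o v
    · exact Or.inr (Or.inl ⟨⟨v, h2⟩, rfl⟩)
    · exact Or.inr (Or.inr (by simp [far, h1, h2]))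
  have fo : ∀ {b}, b ∈ far G o → ¬ G.Adj o b := fun hb => by simp [far] at hb; exact hb.2
  have fo' : ∀ {b}, b ∈ far H o' → ¬ H.Adj o' b := fun hb => by simp [far] at hb; exact hb.2
  have pb : ∀ (a : {a // G.Adj o a}), ∀ b ∈ far G o, H.Adj (e a) (φ b) ↔ G.Adj a b :=
    fun a b hb => by
      have h1 : e a ∈ blk H o' (φ b) ↔ a ∈ blk G o b := by
        rw [hφ2 b hb]; simp
      simpa [blk] using h1
  have adj : ∀ v w, H.Adj (f v) (f w) ↔ G.Adj v w := by
    intro v w
    rcases tri v with rfl | ⟨a, rfl⟩ | hv <;> rcases tri w with rfl | ⟨a', rfl⟩ | hw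
    · simp
    · rw [f0, f1]; simp [a'.2, (e a').2]
    · rw [f0, f2 _ hw]; simp [fo hw, fo' (hφ1 _ hw)]
    · rw [f0, f1]; simp [a.2.symm, (e a).2.symm]
    · rw [f1, f1]
      exact ⟨fun h3 => (no_tri hH (e a).2 (e a').2 h3).elim, fun h3 => (no_tri hG a.2 a'.2 h3).elim⟩
    · rw [f1, f2 _ hw, pb _ _ hw]
    · rw [f0, f2 _ hv, H.adj_comm, G.adj_comm]; simp [fo hv, fo' (hφ1 _ hv)]
    · rw [f1, f2 _ hv, H.adj_comm, G.adj_comm, pb _ _ hv]
    · rw [f2 _ hv, f2 _ hw, adj_iff hH (hφ1 _ hv) (hφ1 _ hw), adj_iff hG hv hw, hφ2 _ hv, hφ2 _ hw,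
        disjoint_image e.injective]
  have inj : Function.Injective f := by
    intro v w hvw
    by_contra hne
    have h1 : (univ.filter fun x => G.Adj v x) = cn G v w := by
      ext x
      simp only [cn, mem_filter, mem_univ, true_and, iff_self_and]
      intro h2
      rwa [← adj, hvw, adj] at h2
    have h2 := deg22 hG v
    by_cases h3 : G.Adj v w
    · rw [← adj, hvw] at h3; exact H.irrefl h3
    · rw [h1, cn6 hG hne h3] at h2; omega
  have bij : Function.Bijective f :=
    (Fintype.bijective_iff_injective_and_card f).2 ⟨inj, by rw [hG.card, hH.card]⟩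
  exact ⟨⟨Equiv.ofBijective f bij, fun {v w} => adj v w⟩⟩

end Cfsg.Agent.Mix26
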