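import Mathlib
import Cfsg.Agent.FSim.Crit

/-!
# Mix26/AF1: a two-step criterion for the simplicity of the fusion system of a group
-/

set_option autoImplicit false

namespace Cfsg.Agent.Mix26

open Subgroup Cfsg.Agent.Core Cfsg.Agent.FSim
open scoped Pointwise

variable {G : Type*} [Group G] {p : ℕ}

theorem in_extend [Finite G] [Fact p.Prime] {S : Sylow p G} {E : FusionSystem (S : Subgroup G)} (hE : E.IsSaturated p)
    (hsub : E.IsSubsystemOf (groupFusionSystem (S : Subgroup G))) {R : Subgroup G} (hR : R ≤ S) {g : G}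
    (hg : g ∈ normalizer (R : Set G)) (P : Subgroup G) (hPR : P ≤ R) (hC : Cen p P) (hn : g ∈ normalizer (P : Set G))
    (h : In E P g) : In E R g := by
  induction P using WellFoundedGT.induction with
  | ind P ih =>
  have hP := (E.le_of_mem h).1
  rcases hPR.eq_or_lt with rfl | hlt
  · exact h
  have hrec := ((S5077.result p S.isPGroup' E).mp hE).2 P ⟨hP, by
    rintro _ ⟨φ, hφ, rfl⟩
    obtain ⟨-, -, k, hk⟩ := hsub P hφ
    have h1 : ∀ y ∈ FusionSystem.centralizerIn (S : Subgroup G) φ.range,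
        k⁻¹ * y * k ∈ FusionSystem.centralizerIn (S : Subgroup G) P := fun y hy => by
      have h2 : k⁻¹ * y * k ∈ centralizer (P : Set G) := fun x hx => by
        have := congrArg (fun t => k⁻¹ * t * k) (hy.2 _ ⟨⟨x, hx⟩, hk _⟩)
        simpa [mul_assoc] using this
      refine ⟨hP (hC _ h2 ((pow_of_mem S.isPGroup' hy.1).imp fun j e => ?_)), h2⟩
      have := conj_pow (i := p ^ j) (a := k⁻¹) (b := y)
      rwa [inv_inv, e, mul_one, inv_mul_cancel] at this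
    exact Nat.card_le_card_of_injective (fun y => ⟨_, h1 y y.2⟩) fun y z e =>
      Subtype.ext (mul_left_cancel (mul_right_cancel (congrArg Subtype.val e)))⟩
  obtain ⟨ψ, h1, h2⟩ := hrec.2 P _ h (le_antisymm (by rintro _ ⟨x, rfl⟩; exact conj_mem hn x.2) fun y hy =>
    ⟨⟨_, conj_mem' hn hy⟩, by change g * (g⁻¹ * y * g) * g⁻¹ = y; group⟩)
  obtain ⟨-, h3, k, hk⟩ := hsub _ h1
  have hlt' := lt_inf_normalizer_of_nilpotent (S.isPGroup'.to_le hR).isNilpotent hlt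
  set Q := R ⊓ normalizer (P : Set G)
  have hQ : Q ≤ FusionSystem.extender S P (conjHom P g) := fun y hy => subset_closure ⟨hR hy.1, hy.2, _,
    hR (conj_mem hg hy.1), fun x _ => by change g * (y * x * y⁻¹) * g⁻¹ = _ * (g * x * g⁻¹) * _; group⟩
  have h4 : ∀ x ∈ P, k * x * k⁻¹ = g * x * g⁻¹ := fun x hx => (hk ⟨x, hQ (hlt'.le hx)⟩).symm.trans (h2 x hx _)
  have hc : k⁻¹ * g ∈ centralizer (P : Set G) := fun x hx => by
    calc _ = k⁻¹ * (k * x * k⁻¹) * g := by group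
      _ = _ := by rw [h4 x hx]; group
  have hk' : k ∈ normalizer (P : Set G) := by
    simpa using mul_mem hn (inv_mem (centralizer_le_normalizer _ hc))
  have hgQ : g ∈ normalizer (Q : Set G) := mem_normalizer_fintype fun y hy =>
    ⟨conj_mem hg hy.1, conj_mem (le_normalizer hn) hy.2⟩
  have hkQ : k ∈ normalizer (Q : Set G) := mem_normalizer_fintype fun y hy => by
    have e1 : k * y * k⁻¹ ∈ (S : Subgroup G) := hk ⟨y, hQ hy⟩ ▸ h3 ⟨y, hQ hy⟩
    have e2 := conj_mem hg hy.1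
    have e3 : (g * y * g⁻¹)⁻¹ * (k * y * k⁻¹) ∈ P := hC _ (fun x hx => by
      have a1 := h4 _ (conj_mem hy.2 (conj_mem' hk' hx))
      have a2 := h4 _ (conj_mem' hk' hx)
      have a3 : g * (k⁻¹ * x * k) * g⁻¹ = x := by rw [← a2]; group
      have a4 : (k * y * k⁻¹) * x * (k * y * k⁻¹)⁻¹ = (g * y * g⁻¹) * x * (g * y * g⁻¹)⁻¹ := by
        calc _ = k * (y * (k⁻¹ * x * k) * y⁻¹) * k⁻¹ := by group
          _ = (g * y * g⁻¹) * (g * (k⁻¹ * x * k) * g⁻¹) * (g * y * g⁻¹)⁻¹ := by rw [a1]; group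
          _ = _ := by rw [a3]
      calc _ = (g * y * g⁻¹)⁻¹ * ((g * y * g⁻¹) * x * (g * y * g⁻¹)⁻¹) * (k * y * k⁻¹) := by group
        _ = _ := by rw [← a4]; group) (pow_of_mem S.isPGroup' (mul_mem (inv_mem (hR e2)) e1))
    exact ⟨mul_inv_cancel_left (g * y * g⁻¹) (k * y * k⁻¹) ▸ mul_mem e2 (hPR e3), conj_mem (le_normalizer hk') hy.2⟩
  obtain ⟨a, ha, b, hb, e, ha', m, hm, hb'⟩ := exists_split (p := p) (k⁻¹ * g)
  have ha2 := hlt'.le (hC a (zpowers_le.mpr hc ha) ha')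
  have hbP := zpowers_le.mpr hc hb
  have hbQ := zpowers_le.mpr (mul_mem (inv_mem hkQ) hgQ) hb
  refine ih Q hlt' inf_le_left (fun x hx hp => hlt'.le (hC x (fun y hy => hx y (hlt'.le hy)) hp)) hgQ
    ((In.mul (E.conj_mem (inf_le_left.trans hR) (hR ha2.1)) (fun y hy => hQ (mul_mem (mul_mem ha2 hy) (inv_mem ha2)))
      (In.of_eq h1 hk)).congr fun y hy => ?_)
  have h5 : y⁻¹ * (b * y * b⁻¹) ∈ Q := mul_mem (inv_mem hy) (conj_mem hbQ hy)
  obtain ⟨j, hj⟩ := pow_of_mem S.isPGroup' (hR h5.1)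
  have h6 : y⁻¹ * (b * y * b⁻¹) ∈ P := hC _ (by
    rw [← mul_assoc, ← mul_assoc]
    refine mul_mem (fun x hx => ?_) (inv_mem hbP)
    have := congrArg (fun t => y⁻¹ * t * y) (hbP _ (conj_mem hy.2 hx))
    simpa [mul_assoc] using this) ⟨j, hj⟩
  generalize hz : y⁻¹ * (b * y * b⁻¹) = z at hj h6
  have h7 : ∀ n : ℕ, b ^ n * y * (b ^ n)⁻¹ = y * z ^ n := fun n => by
    induction n with
    | zero => simp
    | succ n ih =>
      calc _ = b * (b ^ n * y * (b ^ n)⁻¹) * b⁻¹ := by group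
        _ = (b * y * b⁻¹) * (b * z ^ n * b⁻¹) := by rw [ih]; group
        _ = _ := by rw [← hbP _ (pow_mem h6 n), pow_succ', mul_inv_cancel_right, ← mul_assoc y, ← hz, mul_inv_cancel_left]
  have h8 := h7 m
  rw [hb', one_mul, inv_one, mul_one, left_eq_mul] at h8
  have h9 : z = 1 := orderOf_eq_one_iff.mp (Nat.eq_one_of_dvd_coprimes (hm.pow_left j)
    (orderOf_dvd_of_pow_eq_one hj) (orderOf_dvd_of_pow_eq_one h8))
  rw [h9, inv_mul_eq_one] at hz
  rw [show g = k * (a * b) by rw [← e]; group]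
  conv_lhs => rw [hz]
  group

/-- the two-step criterion -/
theorem simple_of_two [Finite G] [Fact p.Prime] (S : Sylow p G) (hS : (S : Subgroup G) ≠ ⊥)
    (hN : ∀ g ∈ normalizer ((S : Subgroup G) : Set G), ∃ A R Q : Subgroup G, ∃ k, A ≤ Q ∧ R ≤ Q ∧ Q ≤ S ∧ Cen p A ∧
      Cen p R ∧ g ∈ normalizer (A : Set G) ∧ k ∈ normalizer (Q : Set G) ∧ k ∈ normalizer (A : Set G) ∧
      k ∈ PE p (normalizer (R : Set G)) ∧ g * k⁻¹ ∈ PE p (normalizer (A : Set G)))
    (hT : ∀ T : Subgroup G, T ≤ S → T ≠ ⊥ →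
      (∀ x ∈ T, ∀ g : G, g * x * g⁻¹ ∈ (S : Subgroup G) → g * x * g⁻¹ ∈ T) → (S : Subgroup G) ≤ T) :
    (groupFusionSystem (S : Subgroup G)).IsSimple p := by
  refine ⟨S5076.result p S, hS, fun T E hE => ?_⟩
  obtain ⟨⟨hsat, -, hsub, ⟨hTS, hsc⟩, -, hfr⟩, -⟩ := hE
  by_cases hT0 : T = ⊥
  · exact Or.inl hT0
  obtain rfl : T = S := le_antisymm hTS (hT T hTS hT0 fun x hx g hg => by
    have h1 : zpowers x ≤ T := zpowers_le.2 hx
    refine hsc (zpowers x) h1 (conjHom _ g) ⟨h1.trans hTS, ?_, g, fun _ => rfl⟩ ⟨x, mem_zpowers x⟩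
    rintro ⟨_, k, rfl⟩
    change g * x ^ k * g⁻¹ ∈ (S : Subgroup G)
    rw [← conj_zpow]
    exact zpow_mem hg k)
  have hF : ∀ P ≤ (S : Subgroup G), ∀ g, (∀ x ∈ P, g * x * g⁻¹ ∈ (S : Subgroup G)) →
      ∃ a ∈ normalizer ((S : Subgroup G) : Set G), In E P (a⁻¹ * g) := fun P hP g hg => by
    obtain ⟨α, hα, φ₀, h0, e⟩ := hfr P hP (conjHom P g) ⟨hP, fun x => hg x x.2, g, fun _ => rfl⟩
    obtain ⟨a, ha, e'⟩ : ∃ a ∈ normalizer ((S : Subgroup G) : Set G), ∀ x : (S : Subgroup G), (α x : G) = a * x * a⁻¹ := by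
      refine closure_induction (p := fun α _ => ∃ a ∈ normalizer ((S : Subgroup G) : Set G),
        ∀ x : (S : Subgroup G), (α x : G) = a * x * a⁻¹) ?_ ⟨1, one_mem _, fun x => by simp⟩ ?_ ?_ hα
      · rintro β ⟨-, h2, g, hg⟩
        exact ⟨g, mem_normalizer_fintype fun x hx => hg ⟨x, hx⟩ ▸ h2 _, hg⟩
      · rintro β γ - - ⟨s, hs, e⟩ ⟨t, ht, e'⟩
        exact ⟨s * t, mul_mem hs ht, fun x => by rw [MulAut.mul_apply, e, e']; group⟩
      · rintro β - ⟨s, hs, e⟩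
        refine ⟨s⁻¹, inv_mem hs, fun x => ?_⟩
        have := e (β⁻¹ x)
        rw [MulAut.apply_inv_self] at this
        rw [this]; group
    refine ⟨a, ha, In.of_eq h0 fun x => ?_⟩
    have := (e x ((E.le_of_mem h0).2 x)).trans (e' _)
    change g * x * g⁻¹ = a * φ₀ x * a⁻¹ at this
    calc _ = a⁻¹ * (a * φ₀ x * a⁻¹) * a := by group
      _ = _ := by rw [← this]; group
  have hP : ∀ P (hP : P ≤ (S : Subgroup G)), PE p (normalizer (P : Set G)) ≤ aut E hP := fun P hP =>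
    (closure_le (aut E hP)).mpr (by
    rintro x ⟨hx, hx'⟩
    obtain ⟨k, -, hk⟩ := exists_conj_mem (isSylowOf_top S) (IsPGroup.to_sup_of_normal_left'
      (S.isPGroup'.to_le hP) (isPGroup_zpowers hx') (zpowers_le.mpr hx)) le_top
    obtain ⟨a, ha, h1⟩ := hF P hP k fun y hy => hk y (mem_sup_left hy)
    have h2 := conj_mem' ha (hk x (mem_sup_right (mem_zpowers x)))
    have h3 := (h1.mul (fun y hy => (E.le_of_mem h1).2 ⟨y, hy⟩) (E.conj_mem le_rfl h2)).mul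
      (Q := P.map (MulAut.conj (a⁻¹ * k)).toMonoidHom)
      (fun y hy => ⟨_, conj_mem hx hy, by simp [mul_assoc]⟩) (h1.inv (by rintro _ ⟨y, hy, rfl⟩; simpa [mul_assoc] using hy))
    exact ⟨hx, h3.congr fun y _ => by group⟩)
  have hG : ∀ g ∈ normalizer ((S : Subgroup G) : Set G), In E S g := fun g hg => by
    obtain ⟨A, R, Q, k, h1, h2, h3, h4, h5, h6, h7, h8, h9, h10⟩ := hN g hg
    have a1 := (in_extend hsat hsub h3 h7 R h2 h5 (PE_le _ h9) (hP R (h2.trans h3) h9).2).mono h1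
    have a2 := a1.mul (fun x hx => conj_mem h8 hx) (hP A (h1.trans h3) h10).2
    rw [inv_mul_cancel_right] at a2
    exact In.extend hsat hsub hg A h4 h6 a2
  refine Or.inr ⟨rfl, fun P => Set.Subset.antisymm (hsub P) ?_⟩
  rintro φ ⟨hP, h1, g, hg⟩
  obtain ⟨a, ha, h2⟩ := hF P hP g fun x hx => hg ⟨x, hx⟩ ▸ h1 _
  have := h2.mul (fun x hx => (E.le_of_mem h2).2 ⟨x, hx⟩) (hG a ha)
  rwa [mul_inv_cancel_left, In, ← (MonoidHom.ext hg : φ = conjHom P g)] at this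

end Cfsg.Agent.Mix26
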