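import Mathlib
import Cfsg.Agent.FGS.SymSyl2

/-!
# Mix26/AF2: elements of the wreath model
-/

set_option autoImplicit false

namespace Cfsg.Agent.Mix26

open Subgroup Equiv Cfsg.Agent.FGS

section
variable {α β C : Type*} [Group C] (ι : β × C ↪ α)

/-- base elements -/
noncomputable def wB : (β → C) →* Perm α := (Perm.viaEmbeddingHom ι).comp (wrBase β C)

/-- top elements -/
noncomputable def wW : Perm β →* Perm α := (Perm.viaEmbeddingHom ι).comp (wrTop β C)

variable {ι}

@[simp] theorem wB_apply (f : β → C) (i : β) (c : C) : wB ι f (ι (i, c)) = ι (i, f i * c) :=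
  Perm.viaEmbedding_apply _ ι _

@[simp] theorem wW_apply (σ : Perm β) (i : β) (c : C) : wW ι σ (ι (i, c)) = ι (σ i, c) :=
  Perm.viaEmbedding_apply _ ι _

theorem wB_out (f : β → C) {x : α} (hx : x ∉ Set.range ι) : wB ι f x = x := Perm.viaEmbedding_apply_of_notMem _ ι x hx

theorem wW_out (σ : Perm β) {x : α} (hx : x ∉ Set.range ι) : wW ι σ x = x := Perm.viaEmbedding_apply_of_notMem _ ι x hx

omit [Group C] in
theorem wr_ext (ι : β × C ↪ α) {g h : Perm α} (h1 : ∀ i c, g (ι (i, c)) = h (ι (i, c))) (h2 : ∀ x ∉ Set.range ι, g x = h x) : g = h := by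
  ext x
  by_cases hx : x ∈ Set.range ι
  · obtain ⟨⟨i, c⟩, rfl⟩ := hx
    exact h1 i c
  · exact h2 x hx

theorem wW_conj (σ : Perm β) (f : β → C) : wW ι σ * wB ι f * (wW ι σ)⁻¹ = wB ι (f ∘ σ.symm) := by
  rw [wW, wB, MonoidHom.comp_apply, MonoidHom.comp_apply, MonoidHom.comp_apply, ← wrTop_conj, map_mul, map_mul, map_inv]

theorem mem_wr [Finite β] [Finite C] {T : Subgroup (Perm β)} {g : Perm α} :
    g ∈ wrMod ι T ↔ ∃ f : β → C, ∃ σ ∈ T, g = wW ι σ * wB ι f := by
  rw [mem_wrMod]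
  refine exists_congr fun f => exists_congr fun σ => and_congr_right fun _ => ⟨fun h => wr_ext ι (fun i c => ?_) fun x hx => ?_, ?_⟩
  · simp [h.1]
  · rw [h.2 x hx, Perm.mul_apply, wB_out f hx, wW_out σ hx]
  · rintro rfl
    exact ⟨fun i c => by simp, fun x hx => by rw [Perm.mul_apply, wB_out f hx, wW_out σ hx]⟩

theorem mem_wr_bot [Finite β] [Finite C] {g : Perm α} : g ∈ wrMod ι ⊥ ↔ ∃ f : β → C, g = wB ι f := by
  simp [mem_wr]

theorem wB_mem [Finite β] [Finite C] (T : Subgroup (Perm β)) (f : β → C) : wB ι f ∈ wrMod ι T :=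
  mem_wr.mpr ⟨f, 1, one_mem _, by simp⟩

theorem wW_mem [Finite β] [Finite C] {T : Subgroup (Perm β)} {σ : Perm β} (h : σ ∈ T) : wW ι σ ∈ wrMod ι T :=
  mem_wr.mpr ⟨1, σ, h, by simp⟩

theorem wr_mono [Finite β] [Finite C] {T U : Subgroup (Perm β)} (h : T ≤ U) : wrMod ι T ≤ wrMod ι U := fun _ hg => by
  obtain ⟨f, σ, h1, rfl⟩ := mem_wr.mp hg
  exact mul_mem (wW_mem (h h1)) (wB_mem _ f)

theorem wW_norm [Finite β] [Finite C] [Finite α] {T : Subgroup (Perm β)} {ρ : Perm β} (h : ρ ∈ normalizer (T : Set (Perm β))) :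
    wW ι ρ ∈ normalizer (wrMod ι T : Set (Perm α)) := mem_normalizer_fintype fun g hg => by
  obtain ⟨f, σ, h1, rfl⟩ := mem_wr.mp hg
  refine mem_wr.mpr ⟨f ∘ ρ.symm, ρ * σ * ρ⁻¹, (mem_normalizer_iff.mp h σ).mp h1, ?_⟩
  rw [← wW_conj, map_mul, map_mul, map_inv]
  group

variable [Fintype α] [DecidableEq α] [Fintype β] [DecidableEq β] [Fintype C] [DecidableEq C]

theorem card_supp (σ : Perm β) (f : β → C) :
    (wW ι σ * wB ι f).support.card = (Finset.univ.filter fun i => σ i ≠ i ∨ f i ≠ 1).card * Fintype.card C := by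
  rw [← Finset.card_univ, ← Finset.card_product, ← Finset.card_map ι]
  congr 1
  ext x
  by_cases hx : x ∈ Set.range ι
  · obtain ⟨⟨i, c⟩, rfl⟩ := hx
    simp [imp_iff_not_or, not_and_or]
  · have : (wW ι σ * wB ι f) x = x := by rw [Perm.mul_apply, wB_out f hx, wW_out σ hx]
    simp only [Perm.mem_support, this, ne_eq, not_true_eq_false, Finset.mem_map, false_iff]
    rintro ⟨a, -, rfl⟩
    exact hx ⟨a, rfl⟩

theorem card_supp_wB (f : β → C) :
    (wB ι f).support.card = (Finset.univ.filter fun i => f i ≠ 1).card * Fintype.card C := by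
  simpa using card_supp (ι := ι) 1 f

theorem sign_wW (σ : Perm β) : Perm.sign (wW ι σ) = Perm.sign σ ^ Fintype.card C := by
  rw [wW, MonoidHom.comp_apply, sign_viaEmbeddingHom]
  exact (Perm.sign_prodCongrLeft fun _ : C => σ).trans (by rw [Finset.prod_const, Finset.card_univ])

end

theorem torus {β A : Type*} [Fintype β] [DecidableEq β] [CommGroup A] (H : Subgroup (β → A)) (i₀ : β)
    (h : ∀ i t, Pi.mulSingle i t * (Pi.mulSingle i₀ t)⁻¹ ∈ H) (d : β → A) : d * (Pi.mulSingle i₀ (∏ i, d i))⁻¹ ∈ H := by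
  have := prod_mem (t := Finset.univ) fun i _ => h i (d i)
  rwa [Finset.prod_mul_distrib, Finset.univ_prod_mulSingle, Finset.prod_inv_distrib,
    show ∏ i, Pi.mulSingle (M := fun _ => A) i₀ (d i) = Pi.mulSingle i₀ (∏ i, d i) from
      (map_prod (MonoidHom.mulSingle (fun _ : β => A) i₀) d Finset.univ).symm] at this

theorem singles {β A : Type*} [Fintype β] [DecidableEq β] [CommGroup A] (H : Subgroup (β → A))
    (h : ∀ i t, Pi.mulSingle i t ∈ H) (d : β → A) : d ∈ H :=
  Finset.univ_prod_mulSingle d ▸ prod_mem fun i _ => h i (d i)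

theorem reg {α A : Type*} [Group A] [Nontrivial A] {e : A → α} (he : Function.Injective e) (φ : A → Perm α)
    (h1 : ∀ a b, φ a (e b) = e (a * b)) (h2 : ∀ a y, y ∉ Set.range e → φ a y = y) {x : Perm α}
    (hx : ∀ a, φ a * x = x * φ a) : ∃ v, ∀ b, x (e b) = e (b * v) := by
  obtain ⟨a, ha⟩ := exists_ne (1 : A)
  obtain ⟨v, hv⟩ : x (e 1) ∈ Set.range e := by
    by_contra h
    have := congrArg (fun g : Perm α => g (e 1)) (hx a)
    simp only [Perm.mul_apply, h2 a _ h, h1, mul_one] at this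
    exact ha (he (x.injective this)).symm
  refine ⟨v, fun b => ?_⟩
  have := congrArg (fun g : Perm α => g (e 1)) (hx b)
  simpa only [Perm.mul_apply, ← hv, h1, mul_one, eq_comm] using this

theorem isConj_of_card {α : Type*} [Fintype α] [DecidableEq α] {p : ℕ} [hp : Fact p.Prime] {x y : Perm α} (hx : x ^ p = 1)
    (hy : y ^ p = 1) (h : x.support.card = y.support.card) : IsConj x y := by
  have h1 := Perm.cycleType_of_pow_prime_eq_one hx
  have h2 := Perm.cycleType_of_pow_prime_eq_one hy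
  rw [← Perm.sum_cycleType, ← Perm.sum_cycleType, h1, h2, Multiset.sum_replicate, Multiset.sum_replicate, smul_eq_mul,
    smul_eq_mul] at h
  rw [Perm.isConj_iff_cycleType_eq, h1, h2, Nat.eq_of_mul_eq_mul_right hp.out.pos h]

theorem exists_card {α : Type*} [Fintype α] [DecidableEq α] {p : ℕ} [hp : Fact p.Prime] {x : Perm α} (hx : x ^ p = 1) :
    ∃ k ≤ Fintype.card α / p, x.support.card = k * p := by
  have h1 := Perm.cycleType_of_pow_prime_eq_one hx
  have h2 : x.support.card = x.cycleType.card * p := by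
    rw [← Perm.sum_cycleType]
    conv_lhs => rw [h1]
    simp
  exact ⟨_, (Nat.le_div_iff_mul_le hp.out.pos).mpr (h2 ▸ Finset.card_le_univ _), h2⟩

theorem out_subsingleton {α β C : Type*} [Fintype α] [Fintype β] [Fintype C] (ι : β × C ↪ α)
    (h : Fintype.card α ≤ Fintype.card β * Fintype.card C + 1) {x y : α} (hx : x ∉ Set.range ι) (hy : y ∉ Set.range ι) :
    x = y := by
  classical
  by_contra hne
  have := Finset.card_le_univ (insert x (insert y (Finset.univ.map ι)))
  rw [Finset.card_insert_of_notMem (by simpa [hne] using hx), Finset.card_insert_of_notMem (by simpa using hy)] at this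
  simp at this
  omega

end Cfsg.Agent.Mix26
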