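import Mathlib
import Cfsg.Agent.Mix26.AF2

/-!
# Mix26/AF3: strongly closed subgroups in the wreath model
-/

set_option autoImplicit false

namespace Cfsg.Agent.Mix26

open Subgroup Equiv Cfsg.Agent.FGS

variable {α β : Type*} [Fintype α] [DecidableEq α] [Fintype β] [DecidableEq β] {p : ℕ} [hp : Fact p.Prime]
  {ι : β × Multiplicative (ZMod p) ↪ α}

/-- the indicator function of a set of blocks -/
def wInd (p : ℕ) (s : Finset β) : β → Multiplicative (ZMod p) := fun i => if i ∈ s then Multiplicative.ofAdd 1 else 1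

theorem gen_ne : (Multiplicative.ofAdd 1 : Multiplicative (ZMod p)) ≠ 1 := fun h =>
  (one_ne_zero : (1 : ZMod p) ≠ 0) (congrArg Multiplicative.toAdd h)

theorem cp_pow (c : Multiplicative (ZMod p)) : c ^ p = 1 := by
  apply Multiplicative.toAdd.injective
  simp

omit [Fintype α] [DecidableEq α] [Fintype β] [DecidableEq β] in
theorem wB_pow (f : β → Multiplicative (ZMod p)) : wB ι f ^ p = 1 := by
  rw [← map_pow, show f ^ p = 1 from funext fun i => cp_pow _, map_one]

theorem card_wB (f : β → Multiplicative (ZMod p)) :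
    (wB ι f).support.card = (Finset.univ.filter fun i => f i ≠ 1).card * p := by
  rw [card_supp_wB]; simp

theorem card_wInd (s : Finset β) : (wB ι (wInd p s)).support.card = s.card * p := by
  rw [card_wB]
  congr 2
  ext i
  by_cases h : i ∈ s <;> simp [wInd, h]

theorem card_single (i : β) {c : Multiplicative (ZMod p)} (hc : c ≠ 1) :
    (wB ι (Pi.mulSingle i c)).support.card = p := by
  rw [card_wB, show (Finset.univ.filter fun j => Pi.mulSingle (M := fun _ => Multiplicative (ZMod p)) i c j ≠ 1) = {i} by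
    ext j
    by_cases h : j = i <;> simp [h, hc]]
  simp

theorem exists_wInd (hβ : Fintype.card β = Fintype.card α / p) {x : Perm α} (hx : x ^ p = 1) :
    ∃ s : Finset β, x.support.card = s.card * p := by
  obtain ⟨k, h1, h2⟩ := exists_card hx
  obtain ⟨s, -, h3⟩ := Finset.exists_subset_card_eq (s := (Finset.univ : Finset β)) (n := k) (by simpa [hβ] using h1)
  exact ⟨s, h3 ▸ h2⟩

theorem sign_single {ι : β × Multiplicative (ZMod 2) ↪ α} (i : β) :
    Perm.sign (wB ι (Pi.mulSingle i (Multiplicative.ofAdd 1))) = -1 :=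
  (Perm.card_support_eq_two.mp (card_single i gen_ne)).sign_eq

theorem odd_comm (ι : β × Multiplicative (ZMod p) ↪ α) (hβ : Fintype.card β = Fintype.card α / p)
    (h3 : 3 ≤ Fintype.card β) {x : Perm α} (hx : x ^ p = 1) : ∃ c, Perm.sign c = -1 ∧ c * x * c⁻¹ = x := by
  obtain ⟨s, hs⟩ := exists_wInd hβ hx
  obtain ⟨g, rfl⟩ := isConj_iff.mp (isConj_of_card (wB_pow (ι := ι) (wInd p s)) hx (by rw [card_wInd, hs]))
  suffices h : ∃ c, Perm.sign c = -1 ∧ c * wB ι (wInd p s) * c⁻¹ = wB ι (wInd p s) by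
    obtain ⟨c, h1, h2⟩ := h
    refine ⟨g * c * g⁻¹, by simp [h1], ?_⟩
    conv_rhs => rw [← h2]
    group
  obtain ⟨i, j, h1, h2⟩ := Fintype.exists_ne_map_eq_of_card_lt (fun i : β => decide (i ∈ s)) (by rw [Fintype.card_bool]; exact h3)
  rcases hp.out.eq_two_or_odd' with rfl | ho
  · exact ⟨_, sign_single i, by rw [← map_inv, ← map_mul, ← map_mul, mul_inv_cancel_comm]⟩
  · refine ⟨wW ι (swap i j), by simp [sign_wW, h1, ho.neg_one_pow], ?_⟩
    rw [wW_conj]
    congr 1
    funext k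
    have h4 : i ∈ s ↔ j ∈ s := by simpa using h2
    simp only [Function.comp, symm_swap, wInd, swap_apply_def]
    split_ifs <;> simp_all

theorem closed_of (hβ : Fintype.card β = Fintype.card α / p) (h3 : 3 ≤ Fintype.card β) (ι : β × Multiplicative (ZMod p) ↪ α)
    {P T : Subgroup (Perm α)} (hT : ∀ x ∈ T, ∀ g, Perm.sign g = 1 → g * x * g⁻¹ ∈ P → g * x * g⁻¹ ∈ T) {x y : Perm α}
    (hx : x ∈ T) (hx' : x ^ p = 1) (hy : y ∈ P) (hy' : y ^ p = 1) (h : x.support.card = y.support.card) : y ∈ T := by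
  obtain ⟨g, rfl⟩ := isConj_iff.mp (isConj_of_card hx' hy' h)
  rcases Int.units_eq_one_or (Perm.sign g) with h1 | h1
  · exact hT x hx g h1 hy
  · obtain ⟨c, h2, h4⟩ := odd_comm ι hβ h3 hx'
    have e : g * x * g⁻¹ = g * c * x * (g * c)⁻¹ := by
      conv_lhs => rw [← h4]
      group
    rw [e] at hy ⊢
    exact hT x hx _ (by simp [h1, h2]) hy

theorem closed_odd (hβ : Fintype.card β = Fintype.card α / p) (h3 : 3 ≤ Fintype.card β) (ho : Odd p)
    {U : Subgroup (Perm β)} {T : Subgroup (Perm α)}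
    (hT : ∀ x ∈ T, ∀ g, Perm.sign g = 1 → g * x * g⁻¹ ∈ wrMod ι U → g * x * g⁻¹ ∈ T) {z : Perm α} (hz : z ∈ T)
    (hz1 : z ≠ 1) (hz' : z ^ p = 1) {y : Perm α} (hy : y ∈ wrMod ι U) (hy' : y ^ p = 1) : y ∈ T := by
  obtain ⟨s, hs⟩ := exists_wInd hβ hz'
  obtain ⟨i, hi⟩ : s.Nonempty := Finset.card_pos.mp (Nat.pos_of_ne_zero fun h => hz1 (by simpa [h] using hs))
  have h1 := closed_of hβ h3 ι hT hz hz' (wB_mem U (wInd p s)) (wB_pow _) (by rw [card_wInd, hs])
  have h2 := closed_of hβ h3 ι hT hz hz' (wB_mem U (wInd p s * Pi.mulSingle i (Multiplicative.ofAdd 1))) (wB_pow _) (by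
    rw [card_wB, hs]
    congr 2
    ext j
    have h4 : (Multiplicative.ofAdd 1 * Multiplicative.ofAdd 1 : Multiplicative (ZMod p)) ≠ 1 := fun h => by
      have : ((2 : ℕ) : ZMod p) = 0 := by simpa [one_add_one_eq_two] using congrArg Multiplicative.toAdd h
      rw [ZMod.natCast_eq_zero_iff, Nat.prime_dvd_prime_iff_eq hp.out Nat.prime_two] at this
      exact absurd (this ▸ ho) (by decide)
    by_cases h : j = i
    · simp [h, hi, wInd, h4]
    · by_cases h' : j ∈ s <;> simp [h, h', wInd])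
  have h4 := mul_mem (inv_mem h1) h2
  rw [map_mul, inv_mul_cancel_left] at h4
  obtain ⟨t, ht⟩ := exists_wInd hβ hy'
  refine closed_of hβ h3 ι hT (singles (T.comap (wB ι)) (fun j c => ?_) (wInd p t)) (wB_pow _) hy hy' (by rw [card_wInd, ht])
  by_cases hc : c = 1
  · simp [hc]
  · exact closed_of hβ h3 ι hT h4 (wB_pow _) (wB_mem U _) (wB_pow _) (by rw [card_single _ gen_ne, card_single _ hc])

theorem c2_cases (c : Multiplicative (ZMod 2)) : c = 1 ∨ c = Multiplicative.ofAdd 1 := by revert c; decide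

theorem closed_two {ι : β × Multiplicative (ZMod 2) ↪ α} (hβ : Fintype.card β = Fintype.card α / 2)
    (h3 : 3 ≤ Fintype.card β) {U : Subgroup (Perm β)} {a b : β} (hab : a ≠ b) (hU : swap a b ∈ U) {T : Subgroup (Perm α)}
    (hA : ∀ x ∈ T, Perm.sign x = 1)
    (hT : ∀ x ∈ T, ∀ g, Perm.sign g = 1 → g * x * g⁻¹ ∈ wrMod ι U → g * x * g⁻¹ ∈ T) {z : Perm α} (hz : z ∈ T)
    (hz1 : z ≠ 1) (hz' : z ^ 2 = 1) {y : Perm α} (hy : y ∈ wrMod ι U) (hy' : y ^ 2 = 1) (hy1 : Perm.sign y = 1) : y ∈ T := by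
  obtain ⟨k, h1, h2⟩ := exists_card hz'
  have hk : 2 ≤ k := by
    by_contra h
    obtain rfl | rfl : k = 0 ∨ k = 1 := by omega
    · exact hz1 (by simpa using h2)
    · exact absurd ((hA z hz).symm.trans (Perm.card_support_eq_two.mp h2).sign_eq) (by decide)
  obtain ⟨s, h4, -, h5⟩ := Finset.exists_subsuperset_card_eq (s := {a, b}) (t := Finset.univ) (n := k) (Finset.subset_univ _)
    (by rw [Finset.card_pair hab]; exact hk) (by simpa [hβ] using h1)
  have ha : a ∈ s := h4 (by simp)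
  have hb : b ∈ s := h4 (by simp)
  have hsq : ∀ f : β → Multiplicative (ZMod 2), f a = f b → (wW ι (swap a b) * wB ι f) ^ 2 = 1 := fun f hf => by
    have e : wW ι (swap a b) * wB ι f * (wW ι (swap a b))⁻¹ = wB ι f := by
      rw [wW_conj]
      congr 1
      funext k
      simp only [Function.comp, symm_swap, swap_apply_def]
      split_ifs <;> simp_all
    rw [Commute.mul_pow (mul_inv_eq_iff_eq_mul.mp e), wB_pow, ← map_pow, sq, swap_mul_self, map_one, one_mul]
  have h6 := closed_of hβ h3 ι hT hz hz' (wB_mem U (wInd 2 s)) (wB_pow _) (by rw [card_wInd, h2, h5])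
  have h7 := closed_of hβ h3 ι hT hz hz' (mul_mem (wW_mem hU) (wB_mem U (wInd 2 s))) (hsq _ (by simp [wInd, ha, hb])) (by
    rw [card_supp, h2, ← h5]
    congr 2
    ext j
    by_cases h : j ∈ s
    · simp [h, wInd]
    · simp [h, wInd, swap_apply_of_ne_of_ne (ne_of_mem_of_not_mem ha h).symm (ne_of_mem_of_not_mem hb h).symm])
  have h8 := mul_mem h7 (inv_mem h6)
  rw [mul_inv_cancel_right] at h8
  have h9 : (wW ι (swap a b)).support.card = 2 * 2 := by
    have := card_supp (ι := ι) (swap a b) 1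
    rw [map_one, mul_one] at this
    rw [this, show (Finset.univ.filter fun i => swap a b i ≠ i ∨ (1 : β → Multiplicative (ZMod 2)) i ≠ 1) = {a, b} by
      rw [← Perm.support_swap hab]; ext i; simp, Finset.card_pair hab]
    simp
  obtain ⟨t, ht⟩ := exists_wInd hβ hy'
  have h10 := torus (T.comap (wB ι)) a (fun i c => by
    by_cases hi : i = a
    · simp [hi]
    rcases c2_cases c with rfl | rfl
    · simp
    refine closed_of hβ h3 ι hT h8 (by simpa using hsq 1 rfl) (wB_mem U _) (wB_pow _) ?_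
    rw [h9, card_wB]
    congr 1
    refine (Finset.card_pair hi).symm.trans (congrArg _ ?_)
    ext j
    by_cases h : j = i
    · simp [h, hi]
    · by_cases h' : j = a <;> simp [h, h', Ne.symm hi]) (wInd 2 t)
  have hc := isConj_of_card (wB_pow (ι := ι) (wInd 2 t)) hy' (by rw [card_wInd, ht])
  rcases c2_cases (∏ i, wInd 2 t i) with h | h
  · rw [h, Pi.mulSingle_one, inv_one, mul_one] at h10
    exact closed_of hβ h3 ι hT h10 (wB_pow _) hy hy' (by rw [card_wInd, ht])
  · have := hA _ h10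
    obtain ⟨g, rfl⟩ := isConj_iff.mp hc
    rw [h, map_mul, map_mul, map_inv, map_inv, sign_single, show Perm.sign (wB ι (wInd 2 t)) = 1 by
      rwa [map_mul, map_mul, map_inv, mul_inv_cancel_comm] at hy1] at this
    exact absurd this (by decide)

end Cfsg.Agent.Mix26
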