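import Mathlib
import Cfsg.Agent.Mix26.AF3
import Cfsg.Agent.FSim.Crit

/-!
# Mix26/AF4: the normaliser of the base group in the wreath model
-/

set_option autoImplicit false

namespace Cfsg.Agent.Mix26

open Subgroup Equiv Cfsg.Agent.FGS Cfsg.Agent.FSim
open Multiplicative (ofAdd toAdd)

theorem PE_conj {G : Type*} [Group G] {p : ℕ} {K : Subgroup G} {g x : G} (hg : g ∈ K) (hx : x ∈ PE p K) :
    g * x * g⁻¹ ∈ PE p K :=
  (closure_le ((PE p K).comap (MulAut.conj g).toMonoidHom)).mpr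
    (fun _ hy => mem_PE (mul_mem (mul_mem hg hy.1) (inv_mem hg)) (pow_conj hy.2 g)) hx

theorem sign_of_pow {α : Type*} [Fintype α] [DecidableEq α] {p : ℕ} (ho : Odd p) {x : Perm α} (h : ∃ k, x ^ p ^ k = 1) :
    Perm.sign x = 1 := by
  obtain ⟨k, h⟩ := h
  exact sign_eq_one_of_odd (Odd.of_dvd_nat ho.pow (orderOf_dvd_of_pow_eq_one h))

theorem sign_PE {α : Type*} [Fintype α] [DecidableEq α] {p : ℕ} (ho : Odd p) {K : Subgroup (Perm α)} {x : Perm α}
    (h : x ∈ PE p K) : Perm.sign x = 1 :=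
  (closure_le (alternatingGroup α)).mpr (fun _ hy => sign_of_pow ho hy.2) h

theorem alt_le {β : Type*} [Fintype β] [DecidableEq β] (H : Subgroup (Perm β)) (hH : ∀ g, ∀ x ∈ H, g * x * g⁻¹ ∈ H)
    {τ : Perm β} (hτ : τ ∈ H) {a : β} (h1 : τ a ≠ a) (h2 : τ (τ a) ≠ a) : alternatingGroup β ≤ H := by
  have h3 := mul_mem hτ (hH (swap (τ a) a) _ (inv_mem hτ))
  rw [← mul_assoc, ← mul_assoc, ← swap_apply_apply, swap_inv, swap_comm] at h3
  have h4 := Perm.isThreeCycle_swap_mul_swap_same (a := τ a) (b := τ (τ a)) (c := a)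
    (fun h => h1 (τ.injective h).symm) h1 h2
  rw [← Perm.closure_three_cycles_eq_alternating, closure_le]
  intro σ hσ
  obtain ⟨g, rfl⟩ := isConj_iff.mp (Perm.isConj_of_cycleType_eq (h4.cycleType.trans hσ.cycleType.symm))
  exact hH g _ h3

variable {α β : Type*} {p : ℕ} [hp : Fact p.Prime]

/-- diagonal elements on the product -/
def wDiag (β : Type*) (p : ℕ) [Fact p.Prime] : (β → (ZMod p)ˣ) →* Perm (β × Multiplicative (ZMod p)) where
  toFun d := prodCongrRight fun i => toAdd.trans ((MulAction.toPerm (d i)).trans ofAdd)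
  map_one' := by ext x <;> simp
  map_mul' f g := by ext x <;> simp [mul_smul]

/-- diagonal elements -/
noncomputable def wD (ι : β × Multiplicative (ZMod p) ↪ α) : (β → (ZMod p)ˣ) →* Perm α :=
  (Perm.viaEmbeddingHom ι).comp (wDiag β p)

variable {ι : β × Multiplicative (ZMod p) ↪ α}

@[simp] theorem wD_apply (d : β → (ZMod p)ˣ) (i : β) (c : Multiplicative (ZMod p)) :
    wD ι d (ι (i, c)) = ι (i, ofAdd (d i * toAdd c)) := Perm.viaEmbedding_apply _ ι _

theorem wD_out (d : β → (ZMod p)ˣ) {x : α} (hx : x ∉ Set.range ι) : wD ι d x = x :=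
  Perm.viaEmbedding_apply_of_notMem _ ι x hx

theorem wD_conj (d : β → (ZMod p)ˣ) (f : β → Multiplicative (ZMod p)) :
    wD ι d * wB ι f * (wD ι d)⁻¹ = wB ι fun i => ofAdd (d i * toAdd (f i)) := by
  rw [mul_inv_eq_iff_eq_mul]
  exact wr_ext ι (fun i c => by simp [mul_add]) fun x hx => by simp [wD_out _ hx, wB_out _ hx]

theorem wW_wD (σ : Perm β) (d : β → (ZMod p)ˣ) : wW ι σ * wD ι d * (wW ι σ)⁻¹ = wD ι (d ∘ σ.symm) := by
  rw [mul_inv_eq_iff_eq_mul]
  exact wr_ext ι (fun i c => by simp) fun x hx => by simp [wD_out _ hx, wW_out _ hx]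

theorem wD_norm [Finite β] [Finite α] {T : Subgroup (Perm β)} {d : β → (ZMod p)ˣ} (h : ∀ σ ∈ T, d ∘ σ.symm = d) :
    wD ι d ∈ normalizer (wrMod ι T : Set (Perm α)) := mem_normalizer_fintype fun g hg => by
  obtain ⟨f, σ, h1, rfl⟩ := mem_wr.mp hg
  have e : wW ι σ * wD ι d = wD ι d * wW ι σ := mul_inv_eq_iff_eq_mul.mp (by rw [wW_wD, h σ h1])
  rw [← mul_assoc, ← e, mul_assoc, mul_assoc, ← mul_assoc (wD ι d), wD_conj]
  exact mul_mem (wW_mem h1) (wB_mem _ _)

theorem cen_block [DecidableEq β] {x : Perm α} (i : β)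
    (hx : ∀ a, wB ι (Pi.mulSingle i a) * x = x * wB ι (Pi.mulSingle i a)) : ∃ v, ∀ b, x (ι (i, b)) = ι (i, v * b) := by
  refine (reg (e := fun c => ι (i, c)) (fun _ _ h => by simpa using h) (fun a => wB ι (Pi.mulSingle i a))
    (fun a b => by simp) (fun a y hy => ?_) hx).imp fun v h b => by rw [h, mul_comm]
  by_cases h : y ∈ Set.range ι
  · obtain ⟨⟨j, c⟩, rfl⟩ := h
    have : j ≠ i := fun e => hy ⟨c, by rw [e]⟩
    simp [this]
  · exact wB_out _ h

omit hp in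
theorem out_fix [Finite α] (ho : ∀ x ∉ Set.range ι, ∀ y ∉ Set.range ι, x = y) {x : Perm α}
    (h : ∀ i c, x (ι (i, c)) ∈ Set.range ι) (y : α) (hy : y ∉ Set.range ι) : x y = y := by
  refine ho _ (fun h1 => ?_) _ hy
  obtain ⟨z, h2, h3⟩ := (((Set.toFinite _).injOn_iff_bijOn_of_mapsTo (f := x) (s := Set.range ι) (by
    rintro _ ⟨⟨i, c⟩, rfl⟩; exact h i c)).mp x.injective.injOn).surjOn h1
  exact hy (x.injective h3 ▸ h2)

theorem cen_bot [Finite α] [Finite β] (ho : ∀ x ∉ Set.range ι, ∀ y ∉ Set.range ι, x = y) {x : Perm α}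
    (hx : ∀ f, wB ι f * x = x * wB ι f) : x ∈ wrMod ι ⊥ := by
  classical
  choose v hv using fun i => cen_block i fun a => hx (Pi.mulSingle i a)
  exact mem_wrMod.mpr ⟨v, 1, one_mem _, hv, out_fix ho fun i c => ⟨_, (hv i c).symm⟩⟩

theorem norm_struct [Finite α] [Finite β] (ho : ∀ x ∉ Set.range ι, ∀ y ∉ Set.range ι, x = y) {g : Perm α}
    (hg : g ∈ normalizer (wrMod ι ⊥ : Set (Perm α))) : ∃ σ a d, g = wW ι σ * wB ι a * wD ι d := by
  classical
  have h1 : ∀ i, ∃ j a, ∃ u : (ZMod p)ˣ, ∀ c, g (ι (i, c)) = ι (j, a * ofAdd (u * toAdd c)) := fun i => by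
    obtain ⟨f, hf⟩ := mem_wr_bot.mp (conj_mem hg (wB_mem ⊥ (Pi.mulSingle i (ofAdd 1))))
    have h2 : ∀ c, g (ι (i, ofAdd 1 * c)) = wB ι f (g (ι (i, c))) := fun c => by simp [← hf]
    obtain ⟨⟨j, a⟩, h3⟩ : g (ι (i, 1)) ∈ Set.range ι := by
      by_contra h
      have := h2 1
      rw [wB_out _ h] at this
      simpa using this
    have h4 : ∀ k : ℕ, g (ι (i, ofAdd (k : ZMod p))) = ι (j, a * ofAdd (toAdd (f j) * k)) := fun k => by
      induction k with
      | zero => simp [h3]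
      | succ k ih =>
        rw [Nat.cast_succ, add_comm, ofAdd_add, h2, ih, wB_apply, mul_add, ofAdd_add, mul_one, ofAdd_toAdd, mul_left_comm]
    refine ⟨j, a, Units.mk0 (toAdd (f j)) fun h => ?_, fun c => ?_⟩
    · have := (h4 1).trans (by rw [h, zero_mul, zero_mul] : _ = ι (j, a * ofAdd (toAdd (f j) * (0 : ℕ)))) |>.trans (h4 0).symm
      simpa using this
    · obtain ⟨k, hk⟩ := ZMod.natCast_zmod_surjective (toAdd c)
      rw [← hk, Units.val_mk0, ← h4, hk, ofAdd_toAdd]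
  choose s a d h using h1
  have hs : Function.Injective s := fun i j e => by
    have := h i (ofAdd (((d i)⁻¹ : (ZMod p)ˣ) * toAdd ((a i)⁻¹ * a j)))
    rw [toAdd_ofAdd, Units.mul_inv_cancel_left, ofAdd_toAdd, mul_inv_cancel_left, e,
      show ι (s j, a j) = g (ι (j, 1)) by simp [h]] at this
    exact congrArg Prod.fst (ι.injective (g.injective this))
  refine ⟨Equiv.ofBijective s (Finite.injective_iff_bijective.mp hs), a, d, wr_ext ι (fun i c => by simp [h]) fun x hx => ?_⟩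
  rw [out_fix ho (fun i c => ⟨_, (h i c).symm⟩) x hx, Perm.mul_apply, Perm.mul_apply, wD_out _ hx, wB_out _ hx, wW_out _ hx]

variable [Fintype α] [DecidableEq α] [Fintype β] [DecidableEq β]

theorem norm_bot {T : Subgroup (Perm β)} {g : Perm α} (hg : ∀ x ∈ wrMod ι T, g * x * g⁻¹ ∈ wrMod ι T) :
    g ∈ normalizer (wrMod ι ⊥ : Set (Perm α)) := mem_normalizer_fintype fun x hx => by
  obtain ⟨f, rfl⟩ := mem_wr_bot.mp hx
  refine singles (((wrMod ι ⊥).comap (MulAut.conj g).toMonoidHom).comap (wB ι)) (fun i c => ?_) f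
  by_cases hc : c = 1
  · simp [hc]
  obtain ⟨f, σ, -, h⟩ := mem_wr.mp (hg _ (wB_mem T (Pi.mulSingle i c)))
  have h1 := card_supp (ι := ι) σ f
  rw [← h, Perm.card_support_conj, card_single i hc, Fintype.card_multiplicative, ZMod.card] at h1
  have h2 := Nat.eq_of_mul_eq_mul_right hp.out.pos ((one_mul p).trans h1)
  obtain rfl : σ = 1 := Perm.card_support_le_one.mp (h2 ▸ Finset.card_le_card fun j hj => by
    simp [Perm.mem_support.mp hj])
  exact mem_wr.mpr ⟨f, 1, one_mem _, h⟩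

theorem mem_PE_of (ho : Odd p) (h3 : 3 ≤ Fintype.card β) {τ : Perm β} (hτ : τ ^ p = 1) {b : β} (h1 : τ b ≠ b)
    (h2 : τ (τ b) ≠ b) {σ σ' : Perm β} {a : β → Multiplicative (ZMod p)} {d d' : β → (ZMod p)ˣ}
    (hg : Perm.sign (wW ι σ * wB ι a * wD ι d) = 1) (hk : Perm.sign (wW ι σ' * wD ι d') = 1) (hd : ∏ i, d i = ∏ i, d' i) :
    wW ι σ * wB ι a * wD ι d * (wW ι σ' * wD ι d')⁻¹ ∈ PE p (normalizer (wrMod ι ⊥ : Set (Perm α))) := by
  have hW : ∀ ρ, wW ι ρ ∈ normalizer (wrMod ι ⊥ : Set (Perm α)) := fun ρ => wW_norm (by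
    rw [normalizer_eq_top]; trivial)
  have hD : ∀ e, wD ι e ∈ normalizer (wrMod ι ⊥ : Set (Perm α)) := fun e => wD_norm fun σ hσ => by
    rw [mem_bot.mp hσ]; rfl
  have hB : ∀ e, wB ι e ∈ PE p (normalizer (wrMod ι ⊥ : Set (Perm α))) := fun e =>
    mem_PE (le_normalizer (wB_mem _ e)) ⟨1, by rw [pow_one, wB_pow]⟩
  generalize normalizer (wrMod ι ⊥ : Set (Perm α)) = N at hW hD hB ⊢
  have hA : alternatingGroup β ≤ (PE p N).comap (wW ι) := alt_le _ (fun g x hx => by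
    rw [mem_comap, map_mul, map_mul, map_inv]; exact PE_conj (hW g) hx)
    (mem_PE (hW τ) ⟨1, by rw [pow_one, ← map_pow, hτ, map_one]⟩) h1 h2
  have hT := torus ((PE p N).comap (wD ι)) b (fun i t => by
    haveI := alternatingGroup.isPretransitive_of_three_le_card β (by simpa using h3)
    obtain ⟨⟨ρ, h4⟩, rfl⟩ := MulAction.exists_smul_eq (alternatingGroup β) b i
    have h5 : wW ι ρ ∈ PE p N := hA h4
    have := mul_mem h5 (PE_conj (hD (Pi.mulSingle b t)) (inv_mem h5))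
    rw [← mul_assoc, ← mul_assoc, wW_wD] at this
    rw [mem_comap, map_mul, map_inv]
    convert this using 3
    funext j
    change Pi.mulSingle (M := fun _ => (ZMod p)ˣ) (ρ b) t j = Pi.mulSingle (M := fun _ => (ZMod p)ˣ) b t (ρ.symm j)
    simp only [Pi.mulSingle_apply, symm_apply_eq]) (d * d'⁻¹)
  rw [show ∏ i, (d * d'⁻¹) i = 1 by simp [Finset.prod_mul_distrib, hd], Pi.mulSingle_one, inv_one, mul_one, mem_comap,
    map_mul, map_inv] at hT
  have h4 := PE_conj (hW σ) (mul_mem (hB a) hT)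
  have e : wW ι σ * wB ι a * wD ι d * (wW ι σ' * wD ι d')⁻¹ =
      wW ι σ * (wB ι a * (wD ι d * (wD ι d')⁻¹)) * (wW ι σ)⁻¹ * wW ι (σ * σ'⁻¹) := by
    rw [map_mul, map_inv]; group
  have h5 := congrArg Perm.sign e
  rw [map_mul, map_inv, hg, hk, map_mul _ (_ * _), sign_PE ho h4, sign_wW, Fintype.card_multiplicative, ZMod.card] at h5
  refine e ▸ mul_mem h4 (hA ?_)
  rcases Int.units_eq_one_or (Perm.sign (σ * σ'⁻¹)) with h | h
  · exact h
  · rw [h, ho.neg_one_pow] at h5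
    exact absurd h5 (by decide)

end Cfsg.Agent.Mix26
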