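import Mathlib
import Cfsg.Agent.Mix26.AF4

/-!
# Mix26/AF5: an affine plane inside the wreath model
-/

set_option autoImplicit false

namespace Cfsg.Agent.Mix26

open Subgroup Equiv Cfsg.Agent.FGS Cfsg.Agent.FSim
open Multiplicative (ofAdd toAdd)

variable {α γ : Type*} {p : ℕ} [hp : Fact p.Prime] (ι : (ZMod p ⊕ γ) × Multiplicative (ZMod p) ↪ α)

/-- the plane -/
def plE : ZMod p × ZMod p ↪ α := ⟨fun z => ι (Sum.inl z.1, ofAdd z.2), fun z w h => by
  simpa [Prod.ext_iff] using h⟩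

/-- translations of the first blocks -/
def plT (γ : Type*) (p : ℕ) : Multiplicative (ZMod p) →* Perm (ZMod p ⊕ γ) where
  toFun v := sumCongr (Equiv.addLeft (toAdd v)) (Equiv.refl γ)
  map_one' := by ext (x | x) <;> simp
  map_mul' u v := by ext (x | x) <;> simp [add_assoc]

/-- the centric subgroup -/
def plR : Subgroup (Perm α) where
  carrier := {g | ∃ v : ZMod p × ZMod p, ∃ f : γ → Multiplicative (ZMod p), (∀ z, g (plE ι z) = plE ι (v + z)) ∧
    (∀ i c, g (ι (Sum.inr i, c)) = ι (Sum.inr i, f i * c)) ∧ ∀ x ∉ Set.range ι, g x = x}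
  mul_mem' := by
    rintro g h ⟨v, f, h1, h2, h3⟩ ⟨w, e, h4, h5, h6⟩
    exact ⟨v + w, f * e, fun z => by simp [h1, h4, add_assoc], fun i c => by simp [h2, h5, mul_assoc],
      fun x hx => by simp [h3 x hx, h6 x hx]⟩
  one_mem' := ⟨0, 1, by simp, by simp, by simp⟩
  inv_mem' := by
    rintro g ⟨v, f, h1, h2, h3⟩
    exact ⟨-v, f⁻¹, fun z => Perm.inv_eq_iff_eq.mpr (by simp [h1]), fun i c => Perm.inv_eq_iff_eq.mpr (by simp [h2]),
      fun x hx => Perm.inv_eq_iff_eq.mpr (h3 x hx).symm⟩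

variable {ι}

omit hp in
theorem plE_apply (z : ZMod p × ZMod p) : plE ι z = ι (Sum.inl z.1, ofAdd z.2) := rfl

omit hp in
theorem pl_apply (π : Perm (ZMod p × ZMod p)) (z : ZMod p × ZMod p) :
    Perm.viaEmbeddingHom (plE ι) π (plE ι z) = plE ι (π z) := Perm.viaEmbedding_apply _ _ _

omit hp in
theorem pl_inr (π : Perm (ZMod p × ZMod p)) (i : γ) (c : Multiplicative (ZMod p)) :
    Perm.viaEmbeddingHom (plE ι) π (ι (Sum.inr i, c)) = ι (Sum.inr i, c) :=
  Perm.viaEmbedding_apply_of_notMem _ _ _ fun ⟨z, hz⟩ => by simp [plE_apply] at hz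

omit hp in
theorem pl_out (π : Perm (ZMod p × ZMod p)) {x : α} (hx : x ∉ Set.range ι) : Perm.viaEmbeddingHom (plE ι) π x = x :=
  Perm.viaEmbedding_apply_of_notMem _ _ _ fun ⟨_, hz⟩ => hx ⟨_, hz⟩

theorem plR_le [Finite γ] : plR ι ≤ wrMod ι (plT γ p).range := by
  rintro g ⟨v, f, h1, h2, h3⟩
  refine mem_wrMod.mpr ⟨Sum.elim (fun _ => ofAdd v.2) f, _, ⟨ofAdd v.1, rfl⟩, ?_, h3⟩
  rintro (i | i) c
  · exact h1 (i, toAdd c)
  · exact h2 i c

theorem pl_norm [Finite α] {π : Perm (ZMod p × ZMod p)} (h : ∀ u v, π (u + v) = π u + π v) :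
    Perm.viaEmbeddingHom (plE ι) π ∈ normalizer (plR ι : Set (Perm α)) := mem_normalizer_fintype (by
  rintro g ⟨v, f, h1, h2, h3⟩
  rw [← map_inv]
  exact ⟨π v, f, fun z => by simp only [Perm.mul_apply, pl_apply, h1, h, Perm.coe_inv, apply_symm_apply],
    fun i c => by simp only [Perm.mul_apply, pl_inr, h2], fun x hx => by simp only [Perm.mul_apply, pl_out _ hx, h3 x hx]⟩)

theorem cen_plR [Finite α] (ho : ∀ x ∉ Set.range ι, ∀ y ∉ Set.range ι, x = y) {x : Perm α}
    (hx : ∀ g ∈ plR ι, g * x = x * g) : x ∈ plR ι := by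
  classical
  choose f hf using fun i : γ => cen_block (ι := ι) (x := x) (Sum.inr i) fun a => hx _ ⟨0, Pi.mulSingle i a,
    fun z => by simp [plE_apply], fun j c => by simp [Pi.mulSingle_apply], fun y hy => wB_out _ hy⟩
  obtain ⟨v, hv⟩ := reg (A := Multiplicative (ZMod p × ZMod p)) (e := fun z => plE ι (toAdd z)) (x := x)
    (fun _ _ h => by simpa using h) (fun a => Perm.viaEmbeddingHom (plE ι) (Equiv.addLeft (toAdd a)))
    (fun a b => pl_apply _ _) (fun a y hy => Perm.viaEmbedding_apply_of_notMem _ _ _ fun ⟨z, hz⟩ => hy ⟨ofAdd z, hz⟩)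
    fun a => hx _ ⟨toAdd a, 1, fun z => pl_apply _ _, fun j c => by simp [pl_inr], fun y hy => pl_out _ hy⟩
  refine ⟨toAdd v, f, fun z => by simpa [add_comm] using hv (ofAdd z), hf, out_fix ho ?_⟩
  rintro (i | i) c
  · exact ⟨_, (hv (ofAdd (i, toAdd c))).symm⟩
  · exact ⟨_, (hf i c).symm⟩

/-- upper transvections -/
def plX (a : ZMod p) : Perm (ZMod p × ZMod p) :=
  ⟨fun z => (z.1 + a * z.2, z.2), fun z => (z.1 - a * z.2, z.2), fun z => by simp, fun z => by simp⟩

/-- lower transvections -/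
def plY (a : ZMod p) : Perm (ZMod p × ZMod p) :=
  ⟨fun z => (z.1, z.2 + a * z.1), fun z => (z.1, z.2 - a * z.1), fun z => by simp, fun z => by simp⟩

theorem plX_pow (a : ZMod p) (n : ℕ) : plX a ^ n = plX ((n : ZMod p) * a) := by
  induction n with
  | zero => ext z <;> simp [plX]
  | succ n ih => rw [pow_succ, ih]; ext z <;> simp [plX]; ring

theorem plY_pow (a : ZMod p) (n : ℕ) : plY a ^ n = plY ((n : ZMod p) * a) := by
  induction n with
  | zero => ext z <;> simp [plY]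
  | succ n ih => rw [pow_succ, ih]; ext z <;> simp [plY]; ring

theorem plX_mem [Finite α] (a : ZMod p) :
    Perm.viaEmbeddingHom (plE ι) (plX a) ∈ PE p (normalizer (plR ι : Set (Perm α))) :=
  mem_PE (pl_norm fun u v => by ext <;> simp [plX]; ring) ⟨1, by
    rw [pow_one, ← map_pow, plX_pow, show plX ((p : ZMod p) * a) = 1 by ext z <;> simp [plX], map_one]⟩

theorem plY_mem [Finite α] (a : ZMod p) :
    Perm.viaEmbeddingHom (plE ι) (plY a) ∈ PE p (normalizer (plR ι : Set (Perm α))) :=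
  mem_PE (pl_norm fun u v => by ext <;> simp [plY]; ring) ⟨1, by
    rw [pow_one, ← map_pow, plY_pow, show plY ((p : ZMod p) * a) = 1 by ext z <;> simp [plY], map_one]⟩

/-- scaling of the first blocks -/
def plS (γ : Type*) (t : (ZMod p)ˣ) : Perm (ZMod p ⊕ γ) := sumCongr (MulAction.toPerm t) (Equiv.refl γ)

theorem pl_diag [Finite α] (t : (ZMod p)ˣ) :
    wW ι (plS γ t⁻¹) * wD ι (Sum.elim (fun _ => t) 1) ∈ PE p (normalizer (plR ι : Set (Perm α))) := by
  have := mul_mem (mul_mem (mul_mem (mul_mem (mul_mem (plX_mem (ι := ι) ((t : ZMod p)⁻¹)) (plY_mem (-(t : ZMod p)))) (plX_mem (t : ZMod p)⁻¹))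
    (plX_mem (-1))) (plY_mem 1)) (plX_mem (-1))
  simp only [← map_mul] at this
  convert this using 1
  refine wr_ext ι ?_ fun x hx => by rw [Perm.mul_apply, wD_out _ hx, wW_out _ hx, pl_out _ hx]
  rintro (i | i) c
  · refine Eq.trans ?_ (pl_apply _ (i, toAdd c)).symm
    have := t.ne_zero
    rw [Perm.mul_apply, wD_apply, wW_apply, plE_apply]
    congr 2
    · refine congrArg Sum.inl ?_
      change ((t⁻¹ : (ZMod p)ˣ) : ZMod p) * i = _
      simp only [Perm.mul_apply, plX, plY, coe_fn_mk, Units.val_inv_eq_inv_val]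
      field_simp
      ring
    · refine congrArg ofAdd ?_
      simp only [Perm.mul_apply, plX, plY, coe_fn_mk, Sum.elim_inl]
      field_simp
      ring
  · rw [pl_inr, Perm.mul_apply, wD_apply, wW_apply, Sum.elim_inr, Pi.one_apply, Units.val_one, one_mul]
    rfl

theorem plS_norm [Finite γ] (t : (ZMod p)ˣ) : plS γ t ∈ normalizer ((plT γ p).range : Set (Perm (ZMod p ⊕ γ))) :=
  mem_normalizer_fintype (by
    rintro _ ⟨v, rfl⟩
    refine ⟨ofAdd (t * toAdd v), ?_⟩
    rw [eq_mul_inv_iff_mul_eq]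
    ext (x | x) <;> simp [plS, plT, Units.smul_def, mul_add])

theorem exists_k [Fintype α] [DecidableEq α] [Fintype γ] [DecidableEq γ] (ho : Odd p)
    (hout : ∀ x ∉ Set.range ι, ∀ y ∉ Set.range ι, x = y) {g : Perm α} (hg : g ∈ normalizer (wrMod ι ⊥ : Set (Perm α)))
    (hs : Perm.sign g = 1) : ∃ k ∈ normalizer (wrMod ι (plT γ p).range : Set (Perm α)),
      k ∈ normalizer (wrMod ι ⊥ : Set (Perm α)) ∧ k ∈ PE p (normalizer (plR ι : Set (Perm α))) ∧
      g * k⁻¹ ∈ PE p (normalizer (wrMod ι ⊥ : Set (Perm α))) := by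
  obtain ⟨σ, a, d, rfl⟩ := norm_struct hout hg
  have h3 : 3 ≤ p := by have := hp.out.two_le; obtain ⟨k, rfl⟩ := ho; omega
  have h2 : (2 : ZMod p) ≠ 0 := fun h => by
    have := Nat.le_of_dvd two_pos ((ZMod.natCast_eq_zero_iff 2 p).mp (by simpa using h))
    omega
  refine ⟨_, mul_mem (wW_norm (plS_norm _)) (wD_norm ?_), mul_mem (wW_norm (by rw [normalizer_eq_top]; trivial))
    (wD_norm fun σ hσ => by rw [mem_bot.mp hσ]; rfl), pl_diag (∏ i, d i),
    mem_PE_of ho (by simp; omega) (τ := plT γ p (ofAdd 1)) (by rw [← map_pow, cp_pow, map_one]) (b := Sum.inl 0)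
      (by simp [plT]) (by simpa [plT, one_add_one_eq_two] using h2) hs (sign_PE ho (pl_diag _)) ?_⟩
  · rintro _ ⟨v, rfl⟩
    funext i
    rcases i with i | i <;> rfl
  · ext
    simp [Fintype.prod_sum_type]

end Cfsg.Agent.Mix26
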