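import Mathlib
import Cfsg.Agent.Mix26.AF1
import Cfsg.Agent.Mix26.AF5
import Cfsg.Agent.Spec.Syl2
import Cfsg.Agent.H23.AltSyl

/-!
# Mix26/AF6: simplicity of fusion systems of alternating groups
-/

set_option autoImplicit false

namespace Cfsg.Agent.Mix26

open Subgroup Equiv Cfsg.Agent.FGS Cfsg.Agent.FSim
open Multiplicative (ofAdd toAdd)

section
variable {α : Type*} [Fintype α] [DecidableEq α] {p : ℕ} {X : Subgroup (Perm α)}

theorem norm_sub {g : alternatingGroup α} (hg : (g : Perm α) ∈ normalizer (X : Set (Perm α))) :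
    g ∈ normalizer (X.subgroupOf (alternatingGroup α) : Set (alternatingGroup α)) :=
  mem_normalizer_fintype fun _ hx => mem_subgroupOf.mpr (conj_mem hg (mem_subgroupOf.mp hx))

theorem PE_sub (ho : Odd p) {g : alternatingGroup α} (hg : (g : Perm α) ∈ PE p (normalizer (X : Set (Perm α)))) :
    g ∈ PE p (normalizer (X.subgroupOf (alternatingGroup α) : Set (alternatingGroup α))) := by
  obtain ⟨k, h1, h2⟩ := (closure_le ((PE p (normalizer (X.subgroupOf (alternatingGroup α) :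
    Set (alternatingGroup α)))).map (alternatingGroup α).subtype)).mpr (fun y hy => ⟨⟨y, sign_of_pow ho hy.2⟩,
      mem_PE (norm_sub hy.1) (hy.2.imp fun _ e => Subtype.ext e), rfl⟩) hg
  exact Subtype.ext h2 ▸ h1

theorem cen_sub (h1 : X ≤ alternatingGroup α) (h2 : ∀ x, (∀ g ∈ X, g * x = x * g) → x ∈ X) :
    Cen p (X.subgroupOf (alternatingGroup α)) := fun x hx _ =>
  h2 x fun g hg => congrArg Subtype.val (hx ⟨g, h1 hg⟩ hg)

end

theorem plT_two (γ : Type*) [DecidableEq γ] : plT γ 2 (ofAdd 1) = swap (Sum.inl 0) (Sum.inl 1) := by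
  ext (x | x)
  · have h : x = 0 ∨ x = 1 := by revert x; decide
    rcases h with rfl | rfl
    · rw [swap_apply_left]; rfl
    · rw [swap_apply_right]; rfl
  · rw [swap_apply_of_ne_of_ne (by simp) (by simp)]; rfl

theorem alt_simple (n p : ℕ) (hn : 6 ≤ n) [hp : Fact p.Prime] (hnp : p ^ 2 ≤ n) (hb : n % p ≤ 1)
    (S : Sylow p (alternatingGroup (Fin n))) : (groupFusionSystem (S : Subgroup (alternatingGroup (Fin n)))).IsSimple p := by
  obtain ⟨P, hP⟩ := (S.isPGroup'.map (alternatingGroup (Fin n)).subtype).exists_le_sylow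
  have hS : (P : Subgroup (Perm (Fin n))).subgroupOf (alternatingGroup (Fin n)) = S :=
    S.3 (P.isPGroup'.comap_subtype) (map_le_iff_le_comap.mp hP)
  have h1 : p ≤ n / p := (Nat.le_div_iff_mul_le hp.out.pos).mpr (sq p ▸ hnp)
  have hβ : Fintype.card (ZMod p ⊕ Fin (n / p - p)) = Fintype.card (Fin n) / p := by simp; omega
  have h3 : 3 ≤ Fintype.card (ZMod p ⊕ Fin (n / p - p)) := by
    rw [hβ, Fintype.card_fin]
    rcases hp.out.eq_two_or_odd' with rfl | ⟨k, hk⟩
    · omega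
    · have := hp.out.two_le
      omega
  obtain ⟨T, hT⟩ := IsPGroup.exists_le_sylow (p := p) (P := (plT (Fin (n / p - p)) p).range) (by
    rintro ⟨_, v, rfl⟩
    exact ⟨1, Subtype.ext (by rw [pow_one]; change plT _ p v ^ p = 1; rw [← map_pow, cp_pow, map_one])⟩)
  obtain ⟨ι, hι⟩ := sylow_struct P (by simpa using hβ) T
  have hout : ∀ x ∉ Set.range ι, ∀ y ∉ Set.range ι, x = y := fun x hx y hy => out_subsingleton ι (by
    rw [hβ, Fintype.card_fin, Fintype.card_multiplicative, ZMod.card]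
    have := Nat.div_add_mod' n p
    omega) hx hy
  have hS0 : (S : Subgroup (alternatingGroup (Fin n))) ≠ ⊥ := fun h =>
    ((H23.AltSyl.main n p hn S).mp (by rw [h]; infer_instance)).not_ge hnp
  have hmem : ∀ g : alternatingGroup (Fin n), g ∈ (S : Subgroup _) ↔ (g : Perm (Fin n)) ∈ wrMod ι T := fun g => by
    rw [← hS, mem_subgroupOf, hι]
  have hcl : ∀ U : Subgroup (alternatingGroup (Fin n)), U ≤ S → U ≠ ⊥ →
      (∀ x ∈ U, ∀ g, g * x * g⁻¹ ∈ (S : Subgroup (alternatingGroup (Fin n))) → g * x * g⁻¹ ∈ U) → (S : Subgroup _) ≤ U := by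
    intro U h4 h5 h6 s hs
    obtain ⟨z, hz, hz1, hz2, -⟩ := exists_central S.isPGroup' h4 h5 h6
    have h7 : ∀ x ∈ U.map (alternatingGroup (Fin n)).subtype, ∀ g, Perm.sign g = 1 → g * x * g⁻¹ ∈ wrMod ι T →
        g * x * g⁻¹ ∈ U.map (alternatingGroup (Fin n)).subtype := by
      rintro _ ⟨x, hx, rfl⟩ g hg h
      exact ⟨_, h6 x hx ⟨g, hg⟩ ((hmem _).mpr h), rfl⟩
    obtain ⟨y, hy, e⟩ := (closure_le (U.map (alternatingGroup (Fin n)).subtype)).mpr (fun y hy => by
      rcases hp.out.eq_two_or_odd' with rfl | ho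
      · refine closed_two hβ h3 (a := Sum.inl 0) (b := Sum.inl 1) (by simp) (hT ⟨ofAdd 1, ?_⟩) (by
          rintro _ ⟨x, -, rfl⟩; exact x.2) h7 (mem_map_of_mem _ hz) (fun h => hz1 (Subtype.ext h))
          (congrArg Subtype.val hz2) (hι ▸ hy.1.1) hy.2 hy.1.2
        exact plT_two _
      · exact closed_odd hβ h3 ho h7 (mem_map_of_mem _ hz) (fun h => hz1 (Subtype.ext h))
          (congrArg Subtype.val hz2) (hι ▸ hy.1.1) hy.2) ((genP_sylow p n P).2 ⟨hι ▸ (hmem s).mp hs, s.2⟩)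
    exact Subtype.ext e ▸ hy
  rcases hp.out.eq_two_or_odd' with rfl | ho
  · exact simple_of S hS0 ((Spec.sylow_two_alt_selfnorm (by simpa using hn) S).trans (self_le_good S)) hcl
  refine simple_of_two S hS0 (fun g hg => ?_) hcl
  have hA : wrMod ι T ≤ alternatingGroup (Fin n) := fun x hx => sign_of_pow ho (pow_of_mem P.isPGroup' (hι ▸ hx))
  have h4 : (g : Perm (Fin n)) ∈ normalizer (wrMod ι ⊥ : Set (Perm (Fin n))) :=
    norm_bot fun x hx => (hmem _).mp (conj_mem hg ((hmem ⟨x, hA hx⟩).mpr hx))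
  obtain ⟨k, h5, h6, h7, h8⟩ := exists_k ho hout h4 g.2
  exact ⟨(wrMod ι ⊥).subgroupOf _, (plR ι).subgroupOf _, (wrMod ι (plT _ p).range).subgroupOf _, ⟨k, sign_PE ho h7⟩, comap_mono (wr_mono bot_le), comap_mono plR_le,
    fun x hx => (hmem x).mpr (wr_mono hT hx),
    cen_sub ((wr_mono bot_le).trans hA) fun x hx => cen_bot hout fun f => hx _ (wB_mem _ f),
    cen_sub (plR_le.trans ((wr_mono hT).trans hA)) fun x hx => cen_plR hout hx, norm_sub h4, norm_sub h5, norm_sub h6,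
    PE_sub ho h7, PE_sub ho h8⟩

end Cfsg.Agent.Mix26
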