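import Mathlib
import Cfsg.Agent.Mix26.Qd3
import Cfsg.Agent.Spec.Lin2
import Cfsg.Agent.Perm.Conj
import Cfsg.Agent.Comp2.Zsig

/-! A transvection of `SL₂(q)` moves a faithful module in characteristic `p` by at least `q`. -/

set_option autoImplicit false
set_option backward.isDefEq.respectTransparency false
open Cfsg Subgroup
open scoped MatrixGroups Matrix commutatorElement Pointwise

namespace Cfsg.Agent.Mix26
open Cfsg.Agent.Classical.SL2Basic Cfsg.Agent.Classical.Borel2 Cfsg.Agent.PLocal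

theorem exists_prod_order {F : Type*} [Field F] [Finite F] (p : ℕ) [Fact p.Prime] [CharP F p]
    {N : ℕ} (hodd : Odd N) (h1 : 1 < N) (hN : N ∣ Nat.card F + 1) {c : F} (hc : c ≠ 0) :
    ∃ k : SL(2, F), ∀ j : ℕ, ((upper c * (k * upper c * k⁻¹)) ^ (2 * p)) ^ j = 1 ↔ N ∣ j := by
  obtain ⟨f, hf, hq⟩ := Classical.GLBasic.exists_card_eq_pow F p
  have hp := (Fact.out : p.Prime)
  have hpN : ¬ p ∣ N := fun h => by
    have h2 : p ∣ Nat.card F := by rw [hq]; exact dvd_pow_self p hf
    exact hp.one_lt.ne' (Nat.dvd_one.1 ((Nat.dvd_add_right h2).1 (h.trans hN)))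
  haveI : NeZero (N : F) := ⟨fun h => hpN ((CharP.cast_eq_zero_iff F p N).1 h)⟩
  obtain ⟨ζ, hζ⟩ := HasEnoughRootsOfUnity.exists_primitiveRoot (AlgebraicClosure F) N
  have hζ0 : ζ ≠ 0 := hζ.ne_zero (by omega)
  have h4 : ∀ j, ζ ^ (4 * j) = 1 ↔ N ∣ j := fun j => by
    rw [hζ.pow_eq_one_iff_dvd]
    refine ⟨fun h => ?_, fun h => h.mul_left _⟩
    have : N.Coprime (2 ^ 2) := (Nat.coprime_two_right.2 hodd).pow_right 2
    exact this.dvd_of_dvd_mul_left h
  obtain ⟨s, hs⟩ : ∃ s : F, algebraMap F (AlgebraicClosure F) s = ζ + ζ⁻¹ := by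
    apply Spec.mem_range_of_pow_card
    have h2 : ζ ^ Nat.card F = ζ⁻¹ := by
      refine eq_inv_of_mul_eq_one_left ?_
      rw [← pow_succ]
      exact (hζ.pow_eq_one_iff_dvd _).2 hN
    rw [hq, add_pow_char_pow, ← hq, inv_pow, h2, inv_inv, add_comm]
  have hs0 : s ≠ 0 := by
    rintro rfl
    rw [map_zero] at hs
    have : ζ ^ (4 * 1) = 1 := by
      field_simp at hs
      linear_combination (1 - ζ ^ 2) * hs
    exact h1.ne' (Nat.dvd_one.1 ((h4 1).1 this))
  let d : SL(2, F) := mkSL (s / c) 0 0 (c / s) (by field_simp; simp)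
  refine ⟨wSL F * d, fun j => ?_⟩
  have e : wSL F * d * upper c * (wSL F * d)⁻¹ = lower (-((s / c) ^ 2 * c)) := by
    rw [← wSL_conj_upper, ← show d 0 0 = s / c from rfl, ← conj_upper (g := d) rfl]
    group
  rw [e]
  obtain ⟨l, hl, hl'⟩ := exists_eigenvalue (p := p) (upper c * lower (-((s / c) ^ 2 * c)))
  have ht : tr (upper c * lower (-((s / c) ^ 2 * c))) = 2 - s ^ 2 := by
    simp [tr, upper, lower, Matrix.mul_apply, Fin.sum_univ_two]
    field_simp
    ring
  rw [ht, map_sub, map_pow, hs, map_ofNat] at hl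
  have hl0 : (l : AlgebraicClosure F) ≠ 0 := l.ne_zero
  have h5 : ((l : AlgebraicClosure F) + ζ ^ 2) * (l * ζ ^ 2 + 1) = 0 := by
    field_simp at hl
    linear_combination -hl
  rw [← pow_mul, show 2 * p * j = 2 * j * p by ring, pow_mul, ← hl', ← h4, ← Units.val_eq_one,
    Units.val_pow_eq_pow_val, pow_mul, pow_mul]
  rcases mul_eq_zero.1 h5 with h | h
  · rw [show (l : AlgebraicClosure F) ^ 2 = ζ ^ 4 by
      linear_combination ((l : AlgebraicClosure F) - ζ ^ 2) * h]
  · rw [show (l : AlgebraicClosure F) ^ 2 = (ζ ^ 4)⁻¹ by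
      field_simp
      linear_combination ((l : AlgebraicClosure F) * ζ ^ 2 - 1) * h, inv_pow, inv_eq_one]

section
variable {Γ M : Type*} [Group Γ] [AddCommGroup M] [DistribMulAction Γ M]

variable (M) in
/-- The fixed points of one element. -/
def fixOf (g : Γ) : AddSubgroup M where
  carrier := {m | g • m = m}
  add_mem' := fun {a b} ha hb => by
    change g • (a + b) = a + b
    rw [smul_add, ha, hb]
  zero_mem' := smul_zero _
  neg_mem' := fun {a} ha => by
    change g • (-a) = -a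
    rw [smul_neg, ha]

theorem mem_fixOf {g : Γ} {m : M} : m ∈ fixOf M g ↔ g • m = m := Iff.rfl

theorem index_fixOf_conj (k g : Γ) : (fixOf M (k * g * k⁻¹)).index = (fixOf M g).index := by
  have : fixOf M (k * g * k⁻¹) = (fixOf M g).comap (DistribSMul.toAddMonoidHom M k⁻¹) := by
    ext m
    rw [AddSubgroup.mem_comap, mem_fixOf, mem_fixOf, mul_smul, mul_smul, smul_eq_iff_eq_inv_smul]
    rfl
  rw [this, AddSubgroup.index_comap_of_surjective _ (MulAction.surjective k⁻¹)]

theorem pow_smul_eq {g : Γ} {m : M} (h : g • m = m) (n : ℕ) : g ^ n • m = m :=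
  (MulAction.stabilizer Γ m).pow_mem h n

theorem dvd_index_sub_one [Finite Γ] [Finite M] {p r e : ℕ} [Fact p.Prime] (hr : r.Prime)
    (hpr : p ≠ r) (hp : ∀ m : M, p • m = 0) {z : Γ} (hz : ∀ j, z ^ j = 1 ↔ r ^ (e + 1) ∣ j) :
    ∃ d, (fixOf M (z ^ r ^ e)).index = p ^ d ∧ r ^ (e + 1) ∣ p ^ d - 1 := by
  have hP : IsPGroup p (Multiplicative M) := fun m => ⟨1, by
    apply Multiplicative.toAdd.injective
    simpa using hp m.toAdd⟩
  obtain ⟨n, hn⟩ := hP.exists_card_eq
  have hn' : Nat.card M = p ^ n := hn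
  set C := fixOf M (z ^ r ^ e)
  obtain ⟨d, -, hd⟩ := (Nat.dvd_prime_pow Fact.out).1 (hn' ▸ C.index_dvd_card)
  obtain ⟨k, -, hk⟩ := (Nat.dvd_prime_pow Fact.out).1 (hn' ▸ C.card_addSubgroup_dvd_card)
  refine ⟨d, hd, ?_⟩
  letI : MulAction (zpowers z) {m : M // m ∉ C} :=
    { smul := fun g y => ⟨(g : Γ) • y.1, fun h => y.2 (by
        have hc : Commute (z ^ r ^ e) g := by
          obtain ⟨g, i, rfl⟩ := g
          exact ((Commute.refl z).zpow_right i).pow_left _
        rw [mem_fixOf, ← mul_smul, hc.eq, mul_smul] at h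
        exact MulAction.injective _ h)⟩
      one_smul := fun y => Subtype.ext (one_smul _ _)
      mul_smul := fun g h y => Subtype.ext (mul_smul _ _ _) }
  have ho : orderOf z = r ^ (e + 1) :=
    Nat.dvd_antisymm (orderOf_dvd_of_pow_eq_one ((hz _).2 dvd_rfl))
      ((hz _).1 (pow_orderOf_eq_one z))
  have h1 := Perm.card_dvd_of_semiregular (G := zpowers z) (α := {m : M // m ∉ C})
    (fun g hg a ha => a.2 (by
      obtain ⟨g, hg'⟩ := g
      obtain ⟨j, rfl⟩ := (mem_powers_iff_mem_zpowers.2 hg' : g ∈ Submonoid.powers z)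
      have h2 : z ^ j ∈ MulAction.stabilizer Γ a.1 := congrArg Subtype.val ha
      obtain ⟨i, hi, hi'⟩ := (Nat.dvd_prime_pow hr).1 (Nat.gcd_dvd_right j (r ^ (e + 1)))
      have hi2 : i ≤ e := by
        by_contra h3
        obtain rfl : i = e + 1 := by omega
        exact hg (Subtype.ext ((hz j).2 (hi' ▸ Nat.gcd_dvd_left _ _)))
      have h3 : z ^ r ^ i ∈ MulAction.stabilizer Γ a.1 := by
        rw [← hi', ← zpow_natCast, Nat.gcd_eq_gcd_ab, zpow_add, zpow_mul, zpow_mul, zpow_natCast,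
          zpow_natCast, (hz _).2 dvd_rfl, one_zpow, mul_one]
        exact zpow_mem h2 _
      obtain ⟨t, rfl⟩ := Nat.exists_eq_add_of_le hi2
      change z ^ r ^ (i + t) • a.1 = a.1
      rw [pow_add, pow_mul]
      exact pow_mem h3 _))
  rw [Nat.card_zpowers, ho] at h1
  have h2 : Nat.card {m : M // m ∉ C} = p ^ k * (p ^ d - 1) := by
    have h3 := C.card_mul_index
    have h4 : Nat.card C + Nat.card {m : M // m ∉ C} = Nat.card M := by
      classical
      rw [← Nat.card_sum]
      exact Nat.card_congr (Equiv.sumCompl (· ∈ C))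
    rw [hd, hk] at h3
    rw [hk, ← h3] at h4
    rw [Nat.mul_sub_one]
    omega
  rw [h2] at h1
  exact (Nat.Coprime.pow _ _ ((Nat.coprime_primes hr Fact.out).2 hpr.symm)).dvd_of_dvd_mul_left h1

end

theorem exists_zsig (p n : ℕ) (hp : p.Prime) (hn : 2 ≤ n) :
    ∃ r e : ℕ, r.Prime ∧ Odd (r ^ (e + 1)) ∧ r ^ (e + 1) ∣ p ^ n + 1 ∧
      ∀ d, 0 < d → r ^ (e + 1) ∣ p ^ d - 1 → 2 * n ≤ d := by
  by_cases h : p = 2 ∧ n = 3
  · obtain ⟨rfl, rfl⟩ := h
    refine ⟨3, 1, Nat.prime_three, by decide, by decide, fun d h0 hd => ?_⟩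
    by_contra h6
    have : d < 6 := by omega
    interval_cases d <;> simp at hd
  obtain ⟨r, hr, h1, h2⟩ := Comp2.Zsig.zsigmondy p (2 * n) hp.one_lt (by omega) (by omega)
    (by omega)
  have h3 : r ∣ p ^ n + 1 := by
    have : p ^ (2 * n) - 1 = (p ^ n + 1) * (p ^ n - 1) := by
      rw [mul_comm 2 n, pow_mul, ← Nat.sq_sub_sq, one_pow]
    rw [this] at h1
    exact ((Nat.Prime.dvd_mul hr).1 h1).resolve_right (h2 n (by omega) (by omega))
  refine ⟨r, 0, hr, ?_, by simpa using h3, fun d h0 hd => ?_⟩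
  · rw [zero_add, pow_one]
    refine hr.odd_of_ne_two ?_
    rintro rfl
    have h4 := h2 1 one_pos (by omega)
    rw [pow_one] at h4
    have h5 : p = 2 := by
      by_contra h5
      obtain ⟨t, rfl⟩ := hp.odd_of_ne_two h5
      exact h4 (by simp)
    subst h5
    have : 2 ∣ 2 ^ n := dvd_pow_self 2 (by omega)
    omega
  · by_contra h6
    exact h2 d h0 (by omega) (by simpa using hd)

theorem card_le_index_fixOf {F : Type*} [Field F] [Finite F] {p n : ℕ} [Fact p.Prime] [CharP F p]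
    (hF : Nat.card F = p ^ n) {M : Type*} [AddCommGroup M] [Finite M]
    [DistribMulAction SL(2, F) M] (hp : ∀ m : M, p • m = 0)
    (hf : ∀ g : SL(2, F), (∀ m : M, g • m = m) → g = 1) {c : F} (hc : c ≠ 0) :
    p ^ n ≤ (fixOf M (upper c)).index := by
  have hpp := (Fact.out : p.Prime)
  have hne : ∀ g : SL(2, F), g ≠ 1 → (fixOf M g).index ≠ 1 := fun g hg h => hg (hf g fun m => by
    rw [AddSubgroup.index_eq_one] at h
    exact (h.ge (AddSubgroup.mem_top m) : m ∈ fixOf M g))
  by_cases hn : 2 ≤ n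
  · obtain ⟨r, e, hr, h1, h2, h3⟩ := exists_zsig p n hpp hn
    obtain ⟨k, hk⟩ := exists_prod_order p h1 (Nat.one_lt_pow (by omega) hr.one_lt) (hF ▸ h2) hc
    have hpr : p ≠ r := by
      rintro rfl
      have h4 : p ∣ p ^ n + 1 := (dvd_pow_self p (by omega)).trans h2
      exact hpp.one_lt.ne' (Nat.dvd_one.1 ((Nat.dvd_add_right (dvd_pow_self p (by omega))).1 h4))
    obtain ⟨d, hd, hd'⟩ := dvd_index_sub_one (M := M) hr hpr hp hk
    have hd0 : 0 < d := by
      refine Nat.pos_of_ne_zero ?_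
      rintro rfl
      refine hne _ (fun h => ?_) hd
      exact absurd (Nat.le_of_dvd (pow_pos hr.pos e) ((hk _).1 h))
        (not_le.2 (Nat.pow_lt_pow_right hr.one_lt (by omega)))
    have h4 : fixOf M (upper c) ⊓ fixOf M (k * upper c * k⁻¹) ≤
        fixOf M (((upper c * (k * upper c * k⁻¹)) ^ (2 * p)) ^ r ^ e) := fun m hm =>
      pow_smul_eq (pow_smul_eq (by rw [mul_smul, hm.2, hm.1]) _) _
    have h5 := (AddSubgroup.index_antitone h4).trans AddSubgroup.index_inf_le
    rw [index_fixOf_conj, hd] at h5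
    have h6 : p ^ n * p ^ n ≤ p ^ d := by
      rw [← pow_add]; exact Nat.pow_le_pow_right hpp.pos (by have := h3 d hd0 hd'; omega)
    exact Nat.mul_self_le_mul_self_iff.1 (h6.trans h5)
  · have hP : IsPGroup p (Multiplicative M) := fun m => ⟨1, by
      apply Multiplicative.toAdd.injective
      simpa using hp m.toAdd⟩
    obtain ⟨m, hm⟩ := hP.exists_card_eq
    have hm' : Nat.card M = p ^ m := hm
    obtain ⟨d, -, hd⟩ := (Nat.dvd_prime_pow hpp).1 (hm' ▸ (fixOf M (upper c)).index_dvd_card)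
    have := hne (upper c) fun h => hc (upper_injective (h.trans upper_zero.symm))
    rw [hd] at this ⊢
    refine Nat.pow_le_pow_right hpp.pos ?_
    rcases d with _ | d
    · simp at this
    · omega

open scoped IsMulCommutative in
theorem card_le_relIndex {X : Type*} [Group X] [Finite X] {p n : ℕ} [Fact p.Prime]
    (V H : Subgroup X) (hV : Cfsg.IsElementaryAbelian p V)
    (hHV : H ≤ Subgroup.normalizer (V : Set X)) (hf : H ⊓ Subgroup.centralizer (V : Set X) = ⊥)
    {F : Type*} [Field F] [Finite F] [CharP F p] (hF : Nat.card F = p ^ n) (e : SL(2, F) ≃* H)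
    {c : F} (hc : c ≠ 0) :
    p ^ n ≤ (V ⊓ Subgroup.centralizer ({(e (upper c) : X)} : Set X)).relIndex V := by
  haveI := hV.1
  letI := conjAct hHV e.toMonoidHom
  have hs : ∀ (g : SL(2, F)) (v : Additive V), ((Additive.toMul (g • v) : V) : X) =
      (e g : X) * (Additive.toMul v : V) * (e g : X)⁻¹ := fun _ _ => rfl
  have h := card_le_index_fixOf (M := Additive V) hF (fun m => by
    apply Additive.toMul.injective
    apply Subtype.ext
    simpa using hV.2 _ (Additive.toMul m).2) (fun g hg => by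
      have : (e g : X) ∈ H ⊓ Subgroup.centralizer (V : Set X) := ⟨(e g).2, fun v hv => by
        have := hs g (Additive.ofMul ⟨v, hv⟩)
        rw [hg] at this
        exact (mul_inv_eq_iff_eq_mul.1 this.symm).symm⟩
      rw [hf, mem_bot] at this
      exact (map_eq_one_iff e e.injective).1 (Subtype.ext this)) hc
  rw [Subgroup.relIndex, ← Subgroup.index_toAddSubgroup]
  refine h.trans (le_of_eq (congrArg AddSubgroup.index (Eq.symm ?_)))
  ext v
  rw [mem_fixOf]
  change ((Additive.toMul v : V) : X) ∈ V ⊓ Subgroup.centralizer _ ↔ _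
  rw [mem_inf, mem_centralizer_singleton_iff]
  constructor
  · rintro ⟨-, h⟩
    apply Additive.toMul.injective
    apply Subtype.ext
    rw [hs, ← h, mul_inv_cancel_right]
  · intro h
    have := hs (upper c) v
    rw [h] at this
    exact ⟨(Additive.toMul v).2, (mul_inv_eq_iff_eq_mul.1 this.symm).symm⟩

end Cfsg.Agent.Mix26
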